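/-
Monomial matrices: the permutation attached to a monomial matrix, small supports of eigenvectors of a monomial
matrix with few non-trivial eigenvalues, and conjugates of diagonal matrices.
-/
import Cfsg.Agent.Lib.Geo.Centres
set_option autoImplicit false

namespace Cfsg.Agent.Lib.SLC2.Mono

open Cfsg Cfsg.Geo Cfsg.Agent.Lib.Geo.Basic Cfsg.Agent.Lib.Geo.Centres Cfsg.Agent.Lib.Geo.Parabolic
open scoped MatrixGroups Matrix

variable {ι : Type} [Fintype ι] [DecidableEq ι] {F : Type*} [Field F]

/-- The column `a` has at most one non-zero entry. -/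
def SingCol (g : Matrix ι ι F) (a : ι) : Prop := ∃ b, ∀ i, i ≠ b → g i a = 0

/-- Every column has at most one non-zero entry. -/
def IsMono (g : Matrix ι ι F) : Prop := ∀ a, SingCol g a

theorem gl_mul_apply (g : GL ι F) (i l : ι) :
    ∑ j, (g : Matrix ι ι F) i j * ((g⁻¹ : GL ι F) : Matrix ι ι F) j l = if i = l then 1 else 0 := by
  have h : (g : Matrix ι ι F) * ((g⁻¹ : GL ι F) : Matrix ι ι F) = 1 := by
    rw [← Units.val_mul, mul_inv_cancel, Units.val_one]
  have := congrFun (congrFun h i) l
  rw [Matrix.mul_apply] at this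
  rw [this, Matrix.one_apply]

theorem gl_inv_mul_apply (g : GL ι F) (i l : ι) :
    ∑ j, ((g⁻¹ : GL ι F) : Matrix ι ι F) i j * (g : Matrix ι ι F) j l = if i = l then 1 else 0 := by
  have h : ((g⁻¹ : GL ι F) : Matrix ι ι F) * (g : Matrix ι ι F) = 1 := by
    rw [← Units.val_mul, inv_mul_cancel, Units.val_one]
  have := congrFun (congrFun h i) l
  rw [Matrix.mul_apply] at this
  rw [this, Matrix.one_apply]

/-- The permutation of a monomial matrix. -/
theorem exists_perm_of_isMono (g : GL ι F) (hg : IsMono (g : Matrix ι ι F)) :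
    ∃ σ : Equiv.Perm ι, ∀ i a, (g : Matrix ι ι F) i a ≠ 0 ↔ i = σ a := by
  choose f hf using hg
  have hne : ∀ a, (g : Matrix ι ι F) (f a) a ≠ 0 := by
    intro a h0
    have h1 := gl_inv_mul_apply g a a
    rw [if_pos rfl, Finset.sum_eq_zero] at h1
    · exact zero_ne_one h1
    · intro j _
      by_cases hj : j = f a
      · rw [hj, h0, mul_zero]
      · rw [hf a j hj, mul_zero]
  have hinj : Function.Injective f := by
    intro a a' haa
    by_contra hne'
    have h1 := gl_inv_mul_apply g a a
    have h2 := gl_inv_mul_apply g a a'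
    rw [if_pos rfl, Finset.sum_eq_single (f a)] at h1
    · rw [if_neg hne', Finset.sum_eq_single (f a)] at h2
      · have h3 : ((g⁻¹ : GL ι F) : Matrix ι ι F) a (f a) ≠ 0 := by
          intro h0
          rw [h0, zero_mul] at h1
          exact zero_ne_one h1
        have h4 := hne a'
        rw [← haa] at h4
        exact (mul_ne_zero h3 h4) h2
      · intro j _ hj
        rw [haa] at hj
        rw [hf a' j hj, mul_zero]
      · simp
    · intro j _ hj
      rw [hf a j hj, mul_zero]
    · simp
  have hbij : Function.Bijective f := Finite.injective_iff_bijective.mp hinj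
  refine ⟨Equiv.ofBijective f hbij, fun i a => ?_⟩
  rw [Equiv.ofBijective_apply]
  constructor
  · intro h
    by_contra hia
    exact h (hf a i hia)
  · rintro rfl
    exact hne a

/-- The inverse of a monomial matrix is monomial. -/
theorem isMono_inv (g : GL ι F) (hg : IsMono (g : Matrix ι ι F)) :
    IsMono ((g⁻¹ : GL ι F) : Matrix ι ι F) := by
  obtain ⟨σ, hσ⟩ := exists_perm_of_isMono g hg
  intro a
  refine ⟨σ.symm a, fun i hi => ?_⟩
  have h1 := gl_inv_mul_apply g i (σ.symm a)
  rw [if_neg hi, Finset.sum_eq_single a] at h1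
  · have h2 : (g : Matrix ι ι F) a (σ.symm a) ≠ 0 := by
      rw [hσ]; simp
    exact (mul_eq_zero.mp h1).resolve_right h2
  · intro j _ hj
    have : (g : Matrix ι ι F) j (σ.symm a) = 0 := by
      by_contra h0
      have h3 := (hσ j (σ.symm a)).mp h0
      simp at h3
      exact hj h3
    rw [this, mul_zero]
  · simp

theorem not_isMono_inv (g : GL ι F) (hg : ¬ IsMono (g : Matrix ι ι F)) :
    ¬ IsMono ((g⁻¹ : GL ι F) : Matrix ι ι F) := by
  intro h
  apply hg
  have := isMono_inv g⁻¹ h
  simpa using this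

/-- The column of a matrix as a vector. -/
def col (g : Matrix ι ι F) (a : ι) : ι → F := fun i => g i a

theorem mulVec_col (g h : Matrix ι ι F) (a : ι) : g *ᵥ col h a = col (g * h) a := by
  ext i
  simp [col, Matrix.mul_apply, Matrix.mulVec, dotProduct]

theorem col_gl_inv_mul (g : GL ι F) (a : ι) :
    ((g⁻¹ : GL ι F) : Matrix ι ι F) *ᵥ col (g : Matrix ι ι F) a = Pi.single a 1 := by
  rw [mulVec_col, ← Units.val_mul, inv_mul_cancel, Units.val_one]
  ext i
  simp [col, Matrix.one_apply, Pi.single_apply]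

theorem col_gl_mul_inv (g : GL ι F) (a : ι) :
    (g : Matrix ι ι F) *ᵥ col ((g⁻¹ : GL ι F) : Matrix ι ι F) a = Pi.single a 1 := by
  rw [mulVec_col, ← Units.val_mul, mul_inv_cancel, Units.val_one]
  ext i
  simp [col, Matrix.one_apply, Pi.single_apply]

theorem mulVec_single_eq_col (g : Matrix ι ι F) (a : ι) : g *ᵥ Pi.single a 1 = col g a := by
  ext i
  simp [col]

open Classical in
/-- The set of coordinates moved by `z`. -/
noncomputable def moved (z : Matrix ι ι F) : Finset ι :=
  Finset.univ.filter fun g => col z g ≠ Pi.single g 1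

theorem mem_moved (z : Matrix ι ι F) (g : ι) : g ∈ moved z ↔ col z g ≠ Pi.single g 1 := by
  simp [moved]

/-- The number of moved coordinates of a monomial matrix is at most twice the rank of `z - 1`. -/
theorem card_moved_le (z : GL ι F) (hz : IsMono (z : Matrix ι ι F)) (U : Submodule F (ι → F)) (r : ℕ)
    (hU : ∀ g, col (z : Matrix ι ι F) g - Pi.single g 1 ∈ U) (hr : Module.finrank F U ≤ r) :
    (moved (z : Matrix ι ι F)).card ≤ 2 * r := by
  classical
  obtain ⟨σ, hσ⟩ := exists_perm_of_isMono z hz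
  set f : ι → (ι → F) := fun g => col (z : Matrix ι ι F) g - Pi.single g 1 with hf
  set S : Set ι := (moved (z : Matrix ι ι F) : Set ι) with hS
  obtain ⟨G, -, hGS, hspan, hli⟩ := exists_linearIndepOn_extension (K := F) (v := f)
    (s := (∅ : Set ι)) (t := S) (by simp) (Set.empty_subset _)
  have hGfin : G.Finite := Set.toFinite G
  set G' : Finset ι := hGfin.toFinset with hG'
  have hcardG : G'.card ≤ r := by
    have h1 : Module.finrank F (Submodule.span F (f '' (G' : Set ι))) = G'.card := by
      have hli' : LinearIndependent F (fun x : (G' : Set ι) => f x) := by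
        have : (G' : Set ι) = G := by simp [hG']
        rw [this]
        exact hli
      rw [Set.image_eq_range]
      exact (finrank_span_eq_card (R := F) hli').trans (by simp)
    rw [← h1]
    refine le_trans (Submodule.finrank_mono ?_) hr
    rw [Submodule.span_le]
    rintro _ ⟨g, -, rfl⟩
    exact hU g
  set T : Finset ι := G' ∪ G'.image σ with hT
  have hTcard : T.card ≤ 2 * G'.card := by
    refine le_trans (Finset.card_union_le _ _) ?_
    have := Finset.card_image_le (s := G') (f := σ)
    omega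
  let W : Submodule F (ι → F) :=
    { carrier := {v | ∀ i, i ∉ T → v i = 0}
      add_mem' := fun {a b} ha hb i hi => by simp [ha i hi, hb i hi]
      zero_mem' := fun i _ => rfl
      smul_mem' := fun c x hx i hi => by simp [hx i hi] }
  have hGW : Submodule.span F (f '' G) ≤ W := by
    rw [Submodule.span_le]
    rintro _ ⟨g, hg, rfl⟩ i hi
    have hgG : g ∈ G' := by simpa [hG'] using hg
    have h1 : i ≠ g := fun h => hi (by rw [hT, Finset.mem_union, h]; exact Or.inl hgG)
    have h2 : i ≠ σ g := fun h => hi (by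
      rw [hT, Finset.mem_union, h]; exact Or.inr (Finset.mem_image_of_mem _ hgG))
    have h3 : (z : Matrix ι ι F) i g = 0 := by
      by_contra h0
      exact h2 ((hσ i g).mp h0)
    simp [hf, col, h3, h1]
  have hsub : moved (z : Matrix ι ι F) ⊆ T := by
    intro h hh
    have hmem : f h ∈ W := hGW (hspan ⟨h, hh, rfl⟩)
    by_contra hnt
    have h0 : f h h = 0 := hmem h hnt
    simp only [hf, col, Pi.sub_apply, Pi.single_eq_same] at h0
    have h1 : (z : Matrix ι ι F) h h = 1 := by linear_combination h0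
    have h2 : h = σ h := (hσ h h).mp (by rw [h1]; exact one_ne_zero)
    rw [mem_moved] at hh
    apply hh
    ext i
    by_cases hi : i = h
    · subst hi
      simp [col, h1]
    · have : (z : Matrix ι ι F) i h = 0 := by
        by_contra h3
        have := (hσ i h).mp h3
        rw [← h2] at this
        exact hi this
      simp [col, this, hi]
  calc (moved (z : Matrix ι ι F)).card ≤ T.card := Finset.card_le_card hsub
    _ ≤ 2 * G'.card := hTcard
    _ ≤ 2 * r := by omega

/-- An eigenvector for an eigenvalue different from `1` of a monomial matrix is supported on the moved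
coordinates. -/
theorem supp_sub_moved (z : GL ι F) (hz : IsMono (z : Matrix ι ι F)) (v : ι → F) (τ : F) (hτ : τ ≠ 1)
    (hv : (z : Matrix ι ι F) *ᵥ v = τ • v) (g : ι) (hg : v g ≠ 0) :
    g ∈ moved (z : Matrix ι ι F) := by
  obtain ⟨σ, hσ⟩ := exists_perm_of_isMono z hz
  rw [mem_moved]
  intro h
  have h1 : ∀ i, (z : Matrix ι ι F) i g = if i = g then 1 else 0 := by
    intro i
    have := congrFun h i
    simp only [col, Pi.single_apply] at this
    exact this
  have h2 : g = σ g := (hσ g g).mp (by rw [h1, if_pos rfl]; exact one_ne_zero)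
  have h3 := congrFun hv g
  simp only [Matrix.mulVec, dotProduct, Pi.smul_apply, smul_eq_mul] at h3
  rw [Finset.sum_eq_single g] at h3
  · rw [h1, if_pos rfl, one_mul] at h3
    have : (τ - 1) * v g = 0 := by linear_combination -h3
    rcases mul_eq_zero.mp this with h4 | h4
    · exact hτ (by linear_combination h4)
    · exact hg h4
  · intro a _ ha
    have : (z : Matrix ι ι F) g a = 0 := by
      by_contra h0
      have h5 := (hσ g a).mp h0
      rw [h2] at h5
      have := σ.injective h5
      exact ha this.symm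
    rw [this, zero_mul]
  · simp

/-! ### Permutation matrices -/

/-- The permutation matrix of `σ`. -/
def pm (σ : Equiv.Perm ι) : GL ι F where
  val := σ.toPEquiv.toMatrix
  inv := σ.symm.toPEquiv.toMatrix
  val_inv := by
    rw [← PEquiv.toMatrix_trans, ← Equiv.toPEquiv_trans]
    simp
  inv_val := by
    rw [← PEquiv.toMatrix_trans, ← Equiv.toPEquiv_trans]
    simp

theorem coe_pm (σ : Equiv.Perm ι) : ((pm σ : GL ι F) : Matrix ι ι F) = σ.toPEquiv.toMatrix := rfl

theorem coe_pm_inv (σ : Equiv.Perm ι) : (((pm σ)⁻¹ : GL ι F) : Matrix ι ι F) = σ.symm.toPEquiv.toMatrix := rfl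

theorem pm_apply (σ : Equiv.Perm ι) (i a : ι) :
    ((pm σ : GL ι F) : Matrix ι ι F) i a = if σ i = a then 1 else 0 := by
  rw [coe_pm, PEquiv.toMatrix_toPEquiv_apply, Pi.single_apply]
  simp [eq_comm]

theorem pm_mulVec (σ : Equiv.Perm ι) (v : ι → F) : ((pm σ : GL ι F) : Matrix ι ι F) *ᵥ v = v ∘ σ := by
  rw [coe_pm, PEquiv.toMatrix_toPEquiv_mulVec]

theorem vecMul_pm_inv (σ : Equiv.Perm ι) (φ : ι → F) :
    φ ᵥ* (((pm σ)⁻¹ : GL ι F) : Matrix ι ι F) = φ ∘ σ := by
  rw [coe_pm_inv, PEquiv.vecMul_toMatrix_toPEquiv]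
  rfl

theorem isMono_pm (σ : Equiv.Perm ι) : IsMono ((pm σ : GL ι F) : Matrix ι ι F) := by
  intro a
  refine ⟨σ.symm a, fun i hi => ?_⟩
  rw [pm_apply, if_neg]
  intro h
  apply hi
  rw [← h]
  simp

theorem det_pm (σ : Equiv.Perm ι) : ((pm σ : GL ι F) : Matrix ι ι F).det = (Equiv.Perm.sign σ : ℤ) := by
  rw [coe_pm]
  exact Matrix.det_permutation (R := F) σ

/-! ### Diagonal matrices and their conjugates -/

/-- The diagonal matrix with unit entries as an element of `GL`. -/
def dg (t : ι → Fˣ) : GL ι F where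
  val := Matrix.diagonal fun a => (t a : F)
  inv := Matrix.diagonal fun a => ((t a)⁻¹ : Fˣ)
  val_inv := by
    rw [Matrix.diagonal_mul_diagonal]
    simp
  inv_val := by
    rw [Matrix.diagonal_mul_diagonal]
    simp

theorem coe_dg (t : ι → Fˣ) : ((dg t : GL ι F) : Matrix ι ι F) = Matrix.diagonal fun a => (t a : F) := rfl

theorem det_dg (t : ι → Fˣ) : ((dg t : GL ι F) : Matrix ι ι F).det = ∏ a, (t a : F) := by
  rw [coe_dg, Matrix.det_diagonal]

theorem isMono_dg (t : ι → Fˣ) : IsMono ((dg t : GL ι F) : Matrix ι ι F) := by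
  intro a
  refine ⟨a, fun i hi => ?_⟩
  rw [coe_dg, Matrix.diagonal_apply_ne _ hi]

/-- Conjugate of a diagonal matrix. -/
def cj (y : GL ι F) (t : ι → Fˣ) : GL ι F := y * dg t * y⁻¹

theorem cj_apply (y : GL ι F) (t : ι → Fˣ) (i l : ι) :
    ((cj y t : GL ι F) : Matrix ι ι F) i l =
      ∑ j, (y : Matrix ι ι F) i j * (t j : F) * ((y⁻¹ : GL ι F) : Matrix ι ι F) j l := by
  simp only [cj, Units.val_mul, Matrix.mul_apply, coe_dg, Matrix.diagonal_apply]
  refine Finset.sum_congr rfl fun j _ => ?_
  rw [Finset.sum_eq_single j]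
  · simp
  · intro b _ hb
    simp [hb]
  · simp

theorem cj_mulVec (y : GL ι F) (t : ι → Fˣ) (v : ι → F) :
    ((cj y t : GL ι F) : Matrix ι ι F) *ᵥ v =
      ∑ j, ((t j : F) * (((y⁻¹ : GL ι F) : Matrix ι ι F) *ᵥ v) j) • col (y : Matrix ι ι F) j := by
  ext i
  simp only [Matrix.mulVec, dotProduct, cj_apply, Finset.sum_apply, Pi.smul_apply, smul_eq_mul, col]
  simp only [Finset.sum_mul, Finset.mul_sum]
  rw [Finset.sum_comm]
  refine Finset.sum_congr rfl fun j _ => Finset.sum_congr rfl fun k _ => ?_
  ring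

theorem col_eq_sum (y : GL ι F) (v : ι → F) :
    v = ∑ j, (((y⁻¹ : GL ι F) : Matrix ι ι F) *ᵥ v) j • col (y : Matrix ι ι F) j := by
  have h : (y : Matrix ι ι F) *ᵥ (((y⁻¹ : GL ι F) : Matrix ι ι F) *ᵥ v) = v := mulVec_inv_mulVec y v
  conv_lhs => rw [← h]
  ext i
  simp only [Matrix.mulVec, dotProduct, Finset.sum_apply, Pi.smul_apply, smul_eq_mul, col]
  refine Finset.sum_congr rfl fun j _ => ?_
  ring

theorem cj_sub (y : GL ι F) (t : ι → Fˣ) (v : ι → F) :
    ((cj y t : GL ι F) : Matrix ι ι F) *ᵥ v - v =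
      ∑ j, (((t j : F) - 1) * (((y⁻¹ : GL ι F) : Matrix ι ι F) *ᵥ v) j) • col (y : Matrix ι ι F) j := by
  rw [cj_mulVec]
  have h := col_eq_sum y v
  have h2 : (∑ j, ((t j : F) * (((y⁻¹ : GL ι F) : Matrix ι ι F) *ᵥ v) j) • col (y : Matrix ι ι F) j) - v =
      (∑ j, ((t j : F) * (((y⁻¹ : GL ι F) : Matrix ι ι F) *ᵥ v) j) • col (y : Matrix ι ι F) j) -
      ∑ j, (((y⁻¹ : GL ι F) : Matrix ι ι F) *ᵥ v) j • col (y : Matrix ι ι F) j := by
    rw [← h]
  rw [h2, ← Finset.sum_sub_distrib]
  refine Finset.sum_congr rfl fun j _ => ?_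
  rw [← sub_smul]
  congr 1
  ring

theorem cj_col (y : GL ι F) (t : ι → Fˣ) (j : ι) :
    ((cj y t : GL ι F) : Matrix ι ι F) *ᵥ col (y : Matrix ι ι F) j = (t j : F) • col (y : Matrix ι ι F) j := by
  rw [cj_mulVec, col_gl_inv_mul, Finset.sum_eq_single j]
  · simp
  · intro k _ hk
    simp [hk]
  · simp

theorem col_cj_sub (y : GL ι F) (t : ι → Fˣ) (g : ι) :
    col ((cj y t : GL ι F) : Matrix ι ι F) g - Pi.single g 1 =
      ∑ j, (((t j : F) - 1) * ((y⁻¹ : GL ι F) : Matrix ι ι F) j g) • col (y : Matrix ι ι F) j := by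
  rw [← mulVec_single_eq_col, cj_sub]
  refine Finset.sum_congr rfl fun j _ => ?_
  rw [mulVec_single_eq_col]
  rfl

open Classical in
/-- The support of a column. -/
noncomputable def colSupp (g : Matrix ι ι F) (j : ι) : Finset ι := Finset.univ.filter fun i => g i j ≠ 0

theorem mem_colSupp (g : Matrix ι ι F) (j i : ι) : i ∈ colSupp g j ↔ g i j ≠ 0 := by
  simp [colSupp]

/-- Columns `y_j` for non-trivial `t_j` are small when the conjugate of `t` by `y` is monomial. -/
theorem col_small (y : GL ι F) (t : ι → Fˣ) (B : Finset ι) (hB : ∀ j, j ∉ B → t j = 1)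
    (hz : IsMono ((cj y t : GL ι F) : Matrix ι ι F)) (j : ι) (hj : (t j : F) ≠ 1) :
    (colSupp (y : Matrix ι ι F) j).card ≤ 2 * B.card := by
  classical
  have h1 : (moved ((cj y t : GL ι F) : Matrix ι ι F)).card ≤ 2 * B.card := by
    refine card_moved_le (cj y t) hz (Submodule.span F ((B.image (col (y : Matrix ι ι F)) : Finset _) :
      Set (ι → F))) B.card ?_ ?_
    · intro g
      rw [col_cj_sub]
      refine Submodule.sum_mem _ fun k _ => ?_
      by_cases hk : k ∈ B
      · refine Submodule.smul_mem _ _ (Submodule.subset_span ?_)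
        simp only [Finset.coe_image, Set.mem_image, Finset.mem_coe]
        exact ⟨k, hk, rfl⟩
      · rw [hB k hk]
        simp
    · refine le_trans (finrank_span_finset_le_card _) Finset.card_image_le
  refine le_trans (Finset.card_le_card ?_) h1
  intro i hi
  rw [mem_colSupp] at hi
  exact supp_sub_moved (cj y t) hz (col (y : Matrix ι ι F) j) (t j) hj (cj_col y t j) i hi

/-- The key property: if `y t y⁻¹` is monomial, with `t` a diagonal matrix with non-trivial entries
`λ, λ⁻¹` at `a, b` and `λ² ≠ 1`, and the column `a` of `y` is not a coordinate vector, then the support of the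
column `b` lies in the support of the column `a`. -/
theorem supp_sub_of_mono (y : GL ι F) (a b : ι) (hab : a ≠ b) (t : ι → Fˣ) (lam : Fˣ)
    (hta : t a = lam) (htb : t b = lam⁻¹) (ht : ∀ j, j ≠ a → j ≠ b → t j = 1)
    (hl : (lam : F) ^ 2 ≠ 1) (hz : IsMono ((cj y t : GL ι F) : Matrix ι ι F))
    (hnon : ¬ SingCol (y : Matrix ι ι F) a) (g₀ : ι) (hg₀ : (y : Matrix ι ι F) g₀ b ≠ 0) :
    (y : Matrix ι ι F) g₀ a ≠ 0 := by
  set z : GL ι F := cj y t with hzdef
  set p : Matrix ι ι F := ((y⁻¹ : GL ι F) : Matrix ι ι F) with hp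
  have hl0 : (lam : F) ≠ 0 := lam.ne_zero
  have hl1 : (lam : F) ≠ 1 := by
    intro h
    apply hl
    rw [h]
    simp
  have hl2 : ((lam⁻¹ : Fˣ) : F) ≠ (lam : F) := by
    intro h
    apply hl
    have h3 : ((lam⁻¹ : Fˣ) : F) * (lam : F) = 1 := by simp
    rw [h] at h3
    rw [sq]
    exact h3
  obtain ⟨σ, hσ⟩ := exists_perm_of_isMono z hz
  have hzrow : ∀ g g', g' ≠ g → (z : Matrix ι ι F) (σ g) g' = 0 := by
    intro g g' hg'
    by_contra h0
    exact hg' (σ.injective ((hσ _ _).mp h0)).symm
  have hzne : ∀ g, (z : Matrix ι ι F) (σ g) g ≠ 0 := fun g => (hσ _ _).mpr rfl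
  have hzcol : ∀ g i, i ≠ σ g → (z : Matrix ι ι F) i g = 0 := by
    intro g i hi
    by_contra h0
    exact hi ((hσ _ _).mp h0)
  -- eigenvector equation
  have heig : ∀ g, (z : Matrix ι ι F) (σ g) g * (y : Matrix ι ι F) g a =
      (lam : F) * (y : Matrix ι ι F) (σ g) a := by
    intro g
    have h1 := congrFun (cj_col y t a) (σ g)
    simp only [Matrix.mulVec, dotProduct, Pi.smul_apply, smul_eq_mul, col, hta] at h1
    rw [Finset.sum_eq_single g] at h1
    · exact h1
    · intro g' _ hg'
      rw [hzrow g g' hg', zero_mul]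
    · simp
  have hC : ∀ g, (y : Matrix ι ι F) g a ≠ 0 → (y : Matrix ι ι F) (σ g) a ≠ 0 := by
    intro g hg h0
    have := heig g
    rw [h0, mul_zero] at this
    exact (mul_ne_zero (hzne g) hg) this
  -- expansion of `z`
  have hexp : ∀ g i, (z : Matrix ι ι F) i g - (if i = g then 1 else 0) =
      ((lam : F) - 1) * p a g * (y : Matrix ι ι F) i a +
        (((lam⁻¹ : Fˣ) : F) - 1) * p b g * (y : Matrix ι ι F) i b := by
    intro g i
    have h1 := congrFun (col_cj_sub y t g) i
    simp only [Pi.sub_apply, col, Pi.single_apply, Finset.sum_apply, Pi.smul_apply, smul_eq_mul] at h1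
    rw [h1, Finset.sum_eq_add a b hab]
    · rw [hta, htb]
    · intro k _ hk
      rw [ht k hk.1 hk.2]
      simp
    · simp
    · simp
  -- no fixed coordinate in the support
  have hmove : ∀ g, (y : Matrix ι ι F) g a ≠ 0 → σ g ≠ g := by
    intro g hg hfix
    have h1 := heig g
    rw [hfix] at h1
    have h2 : (z : Matrix ι ι F) g g = (lam : F) := mul_right_cancel₀ hg h1
    have hcol : ∀ i, (z : Matrix ι ι F) i g = if i = g then (lam : F) else 0 := by
      intro i
      by_cases hi : i = g
      · rw [hi, h2, if_pos rfl]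
      · rw [if_neg hi]
        exact hzcol g i (by rw [hfix]; exact hi)
    -- coordinates of `e_g` in the basis `y`
    have h3 : ∀ j, j ≠ a → p j g = 0 := by
      intro j hj
      have hpz : ((y⁻¹ : GL ι F) : Matrix ι ι F) * (z : Matrix ι ι F) =
          ((dg t : GL ι F) : Matrix ι ι F) * ((y⁻¹ : GL ι F) : Matrix ι ι F) := by
        rw [← Units.val_mul, ← Units.val_mul]
        congr 1
        simp [hzdef, cj, mul_assoc]
      have h4 := congrFun (congrFun hpz j) g
      rw [Matrix.mul_apply, Matrix.mul_apply, Finset.sum_eq_single g, Finset.sum_eq_single j] at h4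
      · rw [h2, coe_dg, Matrix.diagonal_apply_eq] at h4
        have h5 : ((t j : F) - (lam : F)) * p j g = 0 := by
          rw [hp]
          linear_combination -h4
        rcases mul_eq_zero.mp h5 with h6 | h6
        · exfalso
          by_cases hjb : j = b
          · rw [hjb, htb] at h6
            exact hl2 (by linear_combination h6)
          · rw [ht j hj hjb] at h6
            apply hl1
            simp at h6
            linear_combination -h6
        · exact h6
      · intro k _ hk
        rw [coe_dg, Matrix.diagonal_apply_ne _ hk.symm, zero_mul]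
      · simp
      · intro k _ hk
        rw [hcol k, if_neg hk, mul_zero]
      · simp
    apply hnon
    refine ⟨g, fun i hi => ?_⟩
    have h4 := gl_mul_apply y i g
    rw [if_neg hi, Finset.sum_eq_single a] at h4
    · have h5 : p a g ≠ 0 := by
        intro h0
        have h6 := gl_mul_apply y g g
        rw [if_pos rfl, Finset.sum_eq_zero] at h6
        · exact zero_ne_one h6
        · intro j _
          by_cases hj : j = a
          · rw [hj]
            change _ * p a g = 0
            rw [h0, mul_zero]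
          · change _ * p j g = 0
            rw [h3 j hj, mul_zero]
      exact (mul_eq_zero.mp h4).resolve_right h5
    · intro j _ hj
      change _ * p j g = 0
      rw [h3 j hj, mul_zero]
    · simp
  -- a point of the support of the column `a`
  obtain ⟨g, hg⟩ : ∃ g, (y : Matrix ι ι F) g a ≠ 0 := by
    by_contra hcon
    push Not at hcon
    apply hnon
    exact ⟨a, fun i _ => hcon i⟩
  have hsg := hmove g hg
  have hl3 : ((lam⁻¹ : Fˣ) : F) - 1 ≠ 0 := by
    intro h
    have h1 : ((lam⁻¹ : Fˣ) : F) * (lam : F) = 1 := by simp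
    apply hl1
    have h2 : ((lam⁻¹ : Fˣ) : F) = 1 := by linear_combination h
    rw [h2, one_mul] at h1
    exact h1
  by_cases hcase : ∃ g', (y : Matrix ι ι F) g' a ≠ 0 ∧ p b g' ≠ 0
  · obtain ⟨g', hg', hpb⟩ := hcase
    intro h0
    have h1 := hexp g' g₀
    rw [h0, mul_zero, add_comm, ← sub_eq_iff_eq_add] at h1
    have hne : (z : Matrix ι ι F) g₀ g' - (if g₀ = g' then 1 else 0) ≠ 0 := by
      rw [hexp g' g₀, h0, mul_zero, zero_add]
      exact mul_ne_zero (mul_ne_zero hl3 hpb) hg₀
    by_cases h2 : g₀ = g'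
    · rw [h2] at h0
      exact hg' h0
    · rw [if_neg h2, sub_zero] at hne
      have h3 : g₀ = σ g' := (hσ _ _).mp hne
      rw [h3] at h0
      exact hC g' hg' h0
  · push Not at hcase
    exfalso
    have h1 := hcase g hg
    have hexp' : ∀ i, (z : Matrix ι ι F) i g - (if i = g then 1 else 0) =
        ((lam : F) - 1) * p a g * (y : Matrix ι ι F) i a := by
      intro i
      rw [hexp g i, h1]
      simp
    have h2 : (z : Matrix ι ι F) g g = 0 := hzcol g g (Ne.symm hsg)
    have h3 := hexp' g
    rw [h2, if_pos rfl] at h3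
    have h4 := hexp' (σ g)
    rw [if_neg hsg, sub_zero] at h4
    have h5 := heig g
    -- `z(σg,g) y(g,a) = λ y(σg,a)`; multiply by `κ = (λ-1) p(a,g)`
    have hκ : ((lam : F) - 1) * p a g ≠ 0 := by
      intro h0
      rw [h0, zero_mul] at h3
      have : (1 : F) = 0 := by linear_combination -h3
      exact one_ne_zero this
    have h6 : (z : Matrix ι ι F) (σ g) g * (((lam : F) - 1) * p a g * (y : Matrix ι ι F) g a) =
        (lam : F) * (((lam : F) - 1) * p a g * (y : Matrix ι ι F) (σ g) a) := by
      linear_combination ((lam : F) - 1) * p a g * h5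
    rw [← h3, ← h4] at h6
    have h7 : (z : Matrix ι ι F) (σ g) g * ((lam : F) + 1) = 0 := by linear_combination -h6
    have h8 := (mul_eq_zero.mp h7).resolve_left (hzne g)
    apply hl
    have : (lam : F) = -1 := by linear_combination h8
    rw [this]
    ring

end Cfsg.Agent.Lib.SLC2.Mono
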