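/-
A subgroup containing the diagonal matrices of determinant one and a non-monomial matrix contains a non-monomial
matrix with a coordinate column.
-/
import Cfsg.Agent.Lib.SLC2.Mono
set_option autoImplicit false

namespace Cfsg.Agent.Lib.SLC2.MonoA

open Cfsg Cfsg.Geo Cfsg.Agent.Lib.Geo.Basic Cfsg.Agent.Lib.Geo.Centres Cfsg.Agent.Lib.Geo.Parabolic
open Cfsg.Agent.Lib.SLC2.Mono
open scoped MatrixGroups Matrix

variable {ι : Type} [Fintype ι] [DecidableEq ι] {F : Type*} [Field F]

theorem exists_notMem_finset {α : Type*} [Fintype α] [DecidableEq α] (s : Finset α)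
    (h : s.card < Fintype.card α) : ∃ x, x ∉ s := by
  by_contra hcon
  push Not at hcon
  have : s = Finset.univ := Finset.eq_univ_iff_forall.mpr hcon
  rw [this, Finset.card_univ] at h
  exact lt_irrefl _ h

/-- A diagonal with entries `lam, lam⁻¹` at `a, b`. -/
def dd (a b : ι) (lam : Fˣ) : ι → Fˣ := fun j => if j = a then lam else if j = b then lam⁻¹ else 1

theorem dd_left (a b : ι) (lam : Fˣ) : dd a b lam a = lam := by simp [dd]

theorem dd_right (a b : ι) (hab : a ≠ b) (lam : Fˣ) : dd a b lam b = lam⁻¹ := by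
  simp [dd, hab.symm]

theorem dd_other (a b : ι) (lam : Fˣ) (j : ι) (h1 : j ≠ a) (h2 : j ≠ b) : dd a b lam j = 1 := by
  simp [dd, h1, h2]

theorem prod_dd (a b : ι) (hab : a ≠ b) (lam : Fˣ) : ∏ j, ((dd a b lam j : Fˣ) : F) = 1 := by
  rw [Finset.prod_eq_mul a b hab]
  · rw [dd_left, dd_right a b hab]
    simp
  · intro c _ hc
    rw [dd_other a b lam c hc.1 hc.2]
    simp
  · simp
  · simp

/-- The `SingCol` criterion. -/
theorem singCol_cj (y : GL ι F) (t : ι → Fˣ) (l : ι)
    (h : ∀ j, ((t j : F) - 1) * ((y⁻¹ : GL ι F) : Matrix ι ι F) j l = 0) :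
    SingCol ((cj y t : GL ι F) : Matrix ι ι F) l := by
  refine ⟨l, fun i hi => ?_⟩
  have h1 := congrFun (col_cj_sub y t l) i
  simp only [Pi.sub_apply, col, Pi.single_apply, Finset.sum_apply, Pi.smul_apply, smul_eq_mul, h,
    zero_mul, Finset.sum_const_zero, if_neg hi, sub_zero] at h1
  exact h1

/-- Independence of columns of an invertible matrix. -/
theorem card_le_of_supp (y : GL ι F) (Z C : Finset ι) (h : ∀ b ∈ Z, ∀ i, (y : Matrix ι ι F) i b ≠ 0 → i ∈ C) :
    Z.card ≤ C.card := by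
  by_contra hcon
  push Not at hcon
  let f : (Z → F) →ₗ[F] (C → F) :=
    { toFun := fun c i => ∑ b : Z, c b * (y : Matrix ι ι F) i b
      map_add' := fun c d => by
        ext i
        simp [add_mul, Finset.sum_add_distrib]
      map_smul' := fun e c => by
        ext i
        simp [Finset.mul_sum, mul_assoc] }
  have hker : LinearMap.ker f ≠ ⊥ := by
    apply LinearMap.ker_ne_bot_of_finrank_lt
    simpa using hcon
  obtain ⟨c, hc, hc0⟩ := Submodule.exists_mem_ne_zero_of_ne_bot hker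
  rw [LinearMap.mem_ker] at hc
  apply hc0
  let c' : ι → F := fun b => if hb : b ∈ Z then c ⟨b, hb⟩ else 0
  have h1 : (y : Matrix ι ι F) *ᵥ c' = 0 := by
    ext i
    simp only [Matrix.mulVec, dotProduct, Pi.zero_apply]
    have h2 : ∑ b, (y : Matrix ι ι F) i b * c' b = ∑ b : Z, c b * (y : Matrix ι ι F) i b := by
      have h3 : ∑ b ∈ Z, (y : Matrix ι ι F) i b * c' b = ∑ b, (y : Matrix ι ι F) i b * c' b :=
        Finset.sum_subset (Finset.subset_univ Z) (fun b _ hb => by simp [c', hb])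
      rw [← h3, ← Finset.sum_coe_sort Z]
      refine Finset.sum_congr rfl fun b _ => ?_
      simp [c', mul_comm]
    rw [h2]
    by_cases hi : i ∈ C
    · exact congrFun hc ⟨i, hi⟩
    · refine Finset.sum_eq_zero fun b _ => ?_
      have : (y : Matrix ι ι F) i b = 0 := by
        by_contra h0
        exact hi (h b b.2 i h0)
      rw [this, mul_zero]
  have h2 : c' = 0 := by
    have := inv_mulVec_mulVec y c'
    rw [h1, Matrix.mulVec_zero] at this
    exact this.symm
  ext b
  have := congrFun h2 b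
  simpa [c'] using this

theorem exists_two_notMem {α : Type*} [Fintype α] [DecidableEq α] (s : Finset α)
    (h : s.card + 2 ≤ Fintype.card α) : ∃ u v, u ≠ v ∧ u ∉ s ∧ v ∉ s := by
  obtain ⟨u, hu⟩ := exists_notMem_finset s (by omega)
  obtain ⟨v, hv⟩ := exists_notMem_finset (insert u s) (by
    have := Finset.card_insert_le u s
    omega)
  rw [Finset.mem_insert, not_or] at hv
  exact ⟨u, v, Ne.symm hv.1, hu, hv.2⟩

theorem exists_kernel (A : Fin 2 → Fin 3 → F) : ∃ c : Fin 3 → F, c ≠ 0 ∧ ∀ h, ∑ b, c b * A h b = 0 := by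
  let f : (Fin 3 → F) →ₗ[F] (Fin 2 → F) :=
    { toFun := fun c h => ∑ b, c b * A h b
      map_add' := fun c d => by
        ext h
        simp [add_mul, Finset.sum_add_distrib]
      map_smul' := fun e c => by
        ext h
        simp [Finset.mul_sum, mul_assoc] }
  have hker : LinearMap.ker f ≠ ⊥ := by
    apply LinearMap.ker_ne_bot_of_finrank_lt
    simp
  obtain ⟨c, hc, hc0⟩ := Submodule.exists_mem_ne_zero_of_ne_bot hker
  rw [LinearMap.mem_ker] at hc
  exact ⟨c, hc0, fun h => congrFun hc h⟩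

section Sub

variable (M : Subgroup (GL ι F)) (hT : ∀ t : ι → Fˣ, ∏ j, (t j : F) = 1 → dg t ∈ M)
include hT

theorem cj_mem (y : GL ι F) (hy : y ∈ M) (t : ι → Fˣ) (ht : ∏ j, (t j : F) = 1) : cj y t ∈ M :=
  M.mul_mem (M.mul_mem hy (hT t ht)) (M.inv_mem hy)

/-- Two zeros in a column give a coordinate column. -/
theorem exists_sing_of_two_zeros (hι : 9 ≤ Fintype.card ι) (lam : Fˣ) (hl : (lam : F) ^ 2 ≠ 1)
    (y : GL ι F) (hy : y ∈ M) (hny : ¬ IsMono (y : Matrix ι ι F)) (l u v : ι) (huv : u ≠ v)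
    (hu : (y : Matrix ι ι F) u l = 0) (hv : (y : Matrix ι ι F) v l = 0) :
    ∃ g ∈ M, ¬ IsMono (g : Matrix ι ι F) ∧ ∃ a, SingCol (g : Matrix ι ι F) a := by
  classical
  by_contra hno
  push Not at hno
  have hno' : ∀ g ∈ M, ¬ IsMono (g : Matrix ι ι F) → ∀ a, ¬ SingCol (g : Matrix ι ι F) a := by
    intro g hg hg2 a h
    exact hno g hg hg2 a h
  have hmono : ∀ g ∈ M, ∀ a, SingCol (g : Matrix ι ι F) a → IsMono (g : Matrix ι ι F) := by
    intro g hg a ha
    by_contra h
    exact hno' g hg h a ha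
  have hl1 : (lam : F) ≠ 1 := by
    intro h
    apply hl
    rw [h]
    simp
  set p : GL ι F := y⁻¹ with hp
  have hpM : p ∈ M := M.inv_mem hy
  have hnp : ¬ IsMono (p : Matrix ι ι F) := not_isMono_inv y hny
  have hpi : p⁻¹ = y := by simp [hp]
  -- the first conjugate
  have hz : IsMono ((cj p (dd u v lam) : GL ι F) : Matrix ι ι F) := by
    refine hmono _ (cj_mem M hT p hpM _ (prod_dd u v huv lam)) l (singCol_cj _ _ _ fun j => ?_)
    rw [hpi]
    by_cases hj1 : j = u
    · rw [hj1, hu, mul_zero]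
    · by_cases hj2 : j = v
      · rw [hj2, hv, mul_zero]
      · rw [dd_other u v lam j hj1 hj2]
        simp
  have hcard1 : (colSupp (p : Matrix ι ι F) u).card ≤ 4 := by
    have h1 := col_small p (dd u v lam) {u, v} (fun j hj => by
      simp only [Finset.mem_insert, Finset.mem_singleton, not_or] at hj
      exact dd_other u v lam j hj.1 hj.2) hz u (by rw [dd_left]; exact hl1)
    have h2 : ({u, v} : Finset ι).card ≤ 2 := Finset.card_le_two
    omega
  -- the second family
  set Z : Finset ι := (colSupp (p : Matrix ι ι F) u)ᶜ with hZ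
  have hZcard : 5 ≤ Z.card := by
    rw [hZ, Finset.card_compl]
    omega
  have hZmem : ∀ a ∈ Z, (p : Matrix ι ι F) a u = 0 := by
    intro a ha
    rw [hZ, Finset.mem_compl, mem_colSupp] at ha
    simpa using ha
  have hpair : ∀ a ∈ Z, ∀ b ∈ Z, a ≠ b →
      IsMono ((cj y (dd a b lam) : GL ι F) : Matrix ι ι F) := by
    intro a ha b hb hab
    refine hmono _ (cj_mem M hT y hy _ (prod_dd a b hab lam)) u (singCol_cj _ _ _ fun j => ?_)
    by_cases hj1 : j = a
    · rw [hj1]
      change _ * (p : Matrix ι ι F) a u = 0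
      rw [hZmem a ha, mul_zero]
    · by_cases hj2 : j = b
      · rw [hj2]
        change _ * (p : Matrix ι ι F) b u = 0
        rw [hZmem b hb, mul_zero]
      · rw [dd_other a b lam j hj1 hj2]
        simp
  obtain ⟨a₀, ha₀⟩ : Z.Nonempty := Finset.card_pos.mp (by omega)
  obtain ⟨a₁, ha₁, ha₁0⟩ : ∃ a₁ ∈ Z, a₁ ≠ a₀ := by
    by_contra hcon
    push Not at hcon
    have : Z ⊆ {a₀} := fun x hx => by simpa using hcon x hx
    have := Finset.card_le_card this
    simp at this
    omega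
  have hC : (colSupp (y : Matrix ι ι F) a₀).card ≤ 4 := by
    have h1 := col_small y (dd a₀ a₁ lam) {a₀, a₁} (fun j hj => by
      simp only [Finset.mem_insert, Finset.mem_singleton, not_or] at hj
      exact dd_other a₀ a₁ lam j hj.1 hj.2) (hpair a₀ ha₀ a₁ ha₁ ha₁0.symm) a₀
      (by rw [dd_left]; exact hl1)
    have h2 : ({a₀, a₁} : Finset ι).card ≤ 2 := Finset.card_le_two
    omega
  have hsub : ∀ b ∈ Z, ∀ i, (y : Matrix ι ι F) i b ≠ 0 → i ∈ colSupp (y : Matrix ι ι F) a₀ := by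
    intro b hb i hi
    rw [mem_colSupp]
    by_cases hb0 : b = a₀
    · rwa [hb0] at hi
    · exact supp_sub_of_mono y a₀ b (Ne.symm hb0) (dd a₀ b lam) lam (dd_left _ _ _)
        (dd_right _ _ (Ne.symm hb0) _) (fun j h1 h2 => dd_other _ _ _ j h1 h2) hl
        (hpair a₀ ha₀ b hb (Ne.symm hb0)) (hno' y hy hny a₀) i hi
  have := card_le_of_supp y Z _ hsub
  omega

/-- From one zero to two zeros in a column. -/
theorem exists_two_zeros [Fintype F] (hq : 5 ≤ Fintype.card F) (hι : 13 ≤ Fintype.card ι)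
    (y : GL ι F) (hy : y ∈ M) (hny : ¬ IsMono (y : Matrix ι ι F)) (i l : ι)
    (hil : (y : Matrix ι ι F) i l = 0) :
    ∃ g ∈ M, ¬ IsMono (g : Matrix ι ι F) ∧ ∃ l u v, u ≠ v ∧ (g : Matrix ι ι F) u l = 0 ∧
      (g : Matrix ι ι F) v l = 0 := by
  classical
  by_cases h2 : ∃ v, v ≠ i ∧ (y : Matrix ι ι F) v l = 0
  · obtain ⟨v, hv, hv0⟩ := h2
    exact ⟨y, hy, hny, l, v, i, hv, hv0, hil⟩
  push Not at h2
  obtain ⟨j₁, hj₁⟩ := exists_notMem_finset ({i} : Finset ι) (by simp; omega)
  obtain ⟨j₂, hj₂⟩ := exists_notMem_finset ({i, j₁} : Finset ι) (by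
    have : ({i, j₁} : Finset ι).card ≤ 2 := Finset.card_le_two
    omega)
  obtain ⟨j₃, hj₃⟩ := exists_notMem_finset ({i, j₁, j₂} : Finset ι) (by
    have : ({i, j₁, j₂} : Finset ι).card ≤ 3 := Finset.card_le_three
    omega)
  obtain ⟨h₁, hh₁⟩ := exists_notMem_finset ({l} : Finset ι) (by simp; omega)
  obtain ⟨h₂, hh₂⟩ := exists_notMem_finset ({l, h₁} : Finset ι) (by
    have : ({l, h₁} : Finset ι).card ≤ 2 := Finset.card_le_two
    omega)
  simp only [Finset.mem_insert, Finset.mem_singleton, not_or] at hj₁ hj₂ hj₃ hh₁ hh₂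
  obtain ⟨hj2i, hj21⟩ := hj₂
  obtain ⟨hj3i, hj31, hj32⟩ := hj₃
  obtain ⟨hh2l, hh21⟩ := hh₂
  set p : GL ι F := y⁻¹ with hp
  have hpM : p ∈ M := M.inv_mem hy
  have hnp : ¬ IsMono (p : Matrix ι ι F) := not_isMono_inv y hny
  have hpi : p⁻¹ = y := by simp [hp]
  obtain ⟨c, hc0, hc⟩ := exists_kernel (F := F)
    ![![(p : Matrix ι ι F) h₁ j₁, (p : Matrix ι ι F) h₁ j₂, (p : Matrix ι ι F) h₁ j₃],
      ![(p : Matrix ι ι F) h₂ j₁, (p : Matrix ι ι F) h₂ j₂, (p : Matrix ι ι F) h₂ j₃]]
  have hc1 := hc 0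
  have hc2 := hc 1
  simp only [Fin.sum_univ_three, Matrix.cons_val] at hc1 hc2
  set c₁ := c 0 with hc₁
  set c₂ := c 1 with hc₂
  set c₃ := c 2 with hc₃
  have hcne : c₁ ≠ 0 ∨ c₂ ≠ 0 ∨ c₃ ≠ 0 := by
    by_contra hcon
    push Not at hcon
    apply hc0
    ext b
    fin_cases b
    · exact hcon.1
    · exact hcon.2.1
    · exact hcon.2.2
  have hy1 : (y : Matrix ι ι F) j₁ l ≠ 0 := h2 j₁ hj₁
  have hy2 : (y : Matrix ι ι F) j₂ l ≠ 0 := h2 j₂ hj2i
  have hy3 : (y : Matrix ι ι F) j₃ l ≠ 0 := h2 j₃ hj3i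
  -- the parameter
  obtain ⟨τ, hτ⟩ := exists_notMem_finset ({0, -(y : Matrix ι ι F) j₁ l / c₁, -(y : Matrix ι ι F) j₂ l / c₂,
      -(y : Matrix ι ι F) j₃ l / c₃} : Finset F) (by
    have : ({0, -(y : Matrix ι ι F) j₁ l / c₁, -(y : Matrix ι ι F) j₂ l / c₂,
      -(y : Matrix ι ι F) j₃ l / c₃} : Finset F).card ≤ 4 := Finset.card_le_four
    omega)
  simp only [Finset.mem_insert, Finset.mem_singleton, not_or] at hτ
  obtain ⟨hτ0, hτ1, hτ2, hτ3⟩ := hτ
  have key : ∀ a c' : F, a ≠ 0 → τ ≠ -a / c' → a + τ * c' ≠ 0 := by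
    intro a c' ha hτ' h0
    by_cases hc' : c' = 0
    · rw [hc', mul_zero, add_zero] at h0
      exact ha h0
    · apply hτ'
      field_simp
      linear_combination h0
  have hU1 : ((y : Matrix ι ι F) j₁ l + τ * c₁) / (y : Matrix ι ι F) j₁ l ≠ 0 :=
    div_ne_zero (key _ _ hy1 hτ1) hy1
  have hU2 : ((y : Matrix ι ι F) j₂ l + τ * c₂) / (y : Matrix ι ι F) j₂ l ≠ 0 :=
    div_ne_zero (key _ _ hy2 hτ2) hy2
  have hU3 : ((y : Matrix ι ι F) j₃ l + τ * c₃) / (y : Matrix ι ι F) j₃ l ≠ 0 :=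
    div_ne_zero (key _ _ hy3 hτ3) hy3
  set U₁ : Fˣ := Units.mk0 _ hU1 with hU₁
  set U₂ : Fˣ := Units.mk0 _ hU2 with hU₂
  set U₃ : Fˣ := Units.mk0 _ hU3 with hU₃
  set t : ι → Fˣ := fun j => dd j₁ i U₁ j * dd j₂ i U₂ j * dd j₃ i U₃ j with ht
  have hprod : ∏ j, ((t j : Fˣ) : F) = 1 := by
    simp only [ht, Units.val_mul, Finset.prod_mul_distrib]
    rw [prod_dd _ _ hj₁ _, prod_dd _ _ hj2i _, prod_dd _ _ hj3i _]
    simp
  have ht1 : t j₁ = U₁ := by
    simp only [ht]
    rw [dd_left, dd_other j₂ i U₂ j₁ (Ne.symm hj21) hj₁, dd_other j₃ i U₃ j₁ (Ne.symm hj31) hj₁]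
    simp
  have ht2 : t j₂ = U₂ := by
    simp only [ht]
    rw [dd_left, dd_other j₁ i U₁ j₂ hj21 hj2i, dd_other j₃ i U₃ j₂ (Ne.symm hj32) hj2i]
    simp
  have ht3 : t j₃ = U₃ := by
    simp only [ht]
    rw [dd_left, dd_other j₁ i U₁ j₃ hj31 hj3i, dd_other j₂ i U₂ j₃ hj32 hj3i]
    simp
  have hto : ∀ j, j ≠ j₁ → j ≠ j₂ → j ≠ j₃ → j ≠ i → t j = 1 := by
    intro j h1 h2' h3 h4
    simp only [ht]
    rw [dd_other _ _ _ j h1 h4, dd_other _ _ _ j h2' h4, dd_other _ _ _ j h3 h4]
    simp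
  have hU1v : ((U₁ : Fˣ) : F) - 1 ≠ 0 ∨ c₁ = 0 := by
    by_cases hc' : c₁ = 0
    · exact Or.inr hc'
    · left
      simp only [hU₁, Units.val_mk0]
      intro h
      have : τ * c₁ = 0 := by
        field_simp at h
        linear_combination h
      exact (mul_ne_zero hτ0 hc') this
  -- the conjugate
  have hwM : cj p t ∈ M := cj_mem M hT p hpM t hprod
  have hdiff : ∀ j, ((t j : F) - 1) * ((p⁻¹ : GL ι F) : Matrix ι ι F) j l =
      if j = j₁ then τ * c₁ else if j = j₂ then τ * c₂ else if j = j₃ then τ * c₃ else 0 := by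
    intro j
    rw [hpi]
    by_cases h1 : j = j₁
    · rw [if_pos h1, h1, ht1]
      simp only [hU₁, Units.val_mk0]
      field_simp
      ring
    · rw [if_neg h1]
      by_cases h3 : j = j₂
      · rw [if_pos h3, h3, ht2]
        simp only [hU₂, Units.val_mk0]
        field_simp
        ring
      · rw [if_neg h3]
        by_cases h4 : j = j₃
        · rw [if_pos h4, h4, ht3]
          simp only [hU₃, Units.val_mk0]
          field_simp
          ring
        · rw [if_neg h4]
          by_cases h5 : j = i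
          · rw [h5, hil, mul_zero]
          · rw [hto j h1 h3 h4 h5]
            simp
  have hentry : ∀ h, h ≠ l → ((cj p t : GL ι F) : Matrix ι ι F) h l =
      τ * (c₁ * (p : Matrix ι ι F) h j₁ + c₂ * (p : Matrix ι ι F) h j₂ + c₃ * (p : Matrix ι ι F) h j₃) := by
    intro h hhl
    have h1 := congrFun (col_cj_sub p t l) h
    simp only [Pi.sub_apply, col, Pi.single_apply, Finset.sum_apply, Pi.smul_apply, smul_eq_mul, hdiff,
      if_neg hhl, sub_zero] at h1
    rw [h1]
    have h21 : j₂ ≠ j₁ := hj21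
    have h31 : j₃ ≠ j₁ := hj31
    have h32 : j₃ ≠ j₂ := hj32
    rw [← Finset.sum_subset (Finset.subset_univ ({j₁, j₂, j₃} : Finset ι))]
    · rw [Finset.sum_insert (by simp [Ne.symm h21, Ne.symm h31]), Finset.sum_insert (by simp [Ne.symm h32]),
        Finset.sum_singleton]
      simp only [if_true, if_neg h21, if_neg h31, if_neg h32]
      ring
    · intro j _ hj
      simp only [Finset.mem_insert, Finset.mem_singleton, not_or] at hj
      rw [if_neg hj.1, if_neg hj.2.1, if_neg hj.2.2, zero_mul]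
  by_cases hwm : IsMono ((cj p t : GL ι F) : Matrix ι ι F)
  · -- a small column of `p`
    have hsmall : ∀ j, (t j : F) ≠ 1 → (colSupp (p : Matrix ι ι F) j).card ≤ 8 := by
      intro j hj
      have h1 := col_small p t {j₁, j₂, j₃, i} (fun j hj => by
        simp only [Finset.mem_insert, Finset.mem_singleton, not_or] at hj
        exact hto j hj.1 hj.2.1 hj.2.2.1 hj.2.2.2) hwm j hj
      have h3 : ({j₁, j₂, j₃, i} : Finset ι).card ≤ 4 := Finset.card_le_four
      omega
    have hfin : ∀ j, (t j : F) ≠ 1 → ∃ g ∈ M, ¬ IsMono (g : Matrix ι ι F) ∧ ∃ l u v, u ≠ v ∧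
        (g : Matrix ι ι F) u l = 0 ∧ (g : Matrix ι ι F) v l = 0 := by
      intro j hj
      obtain ⟨u, v, huv, hu, hv⟩ := exists_two_notMem (colSupp (p : Matrix ι ι F) j) (by
        have := hsmall j hj
        omega)
      rw [mem_colSupp] at hu hv
      exact ⟨p, hpM, hnp, j, u, v, huv, by simpa using hu, by simpa using hv⟩
    have hne : ∀ a c' : F, a ≠ 0 → c' ≠ 0 → (a + τ * c') / a ≠ 1 := by
      intro a c' ha hc' h
      have : τ * c' = 0 := by
        field_simp at h
        linear_combination h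
      exact (mul_ne_zero hτ0 hc') this
    rcases hcne with h | h | h
    · exact hfin j₁ (by rw [ht1]; simp only [hU₁, Units.val_mk0]; exact hne _ _ hy1 h)
    · exact hfin j₂ (by rw [ht2]; simp only [hU₂, Units.val_mk0]; exact hne _ _ hy2 h)
    · exact hfin j₃ (by rw [ht3]; simp only [hU₃, Units.val_mk0]; exact hne _ _ hy3 h)
  · refine ⟨cj p t, hwM, hwm, l, h₁, h₂, Ne.symm hh21, ?_, ?_⟩
    · rw [hentry h₁ hh₁]
      rw [mul_eq_zero]
      right
      linear_combination hc1
    · rw [hentry h₂ hh2l]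
      rw [mul_eq_zero]
      right
      linear_combination hc2

/-- A non-monomial matrix gives one with a zero entry. -/
theorem exists_zero_entry (hι : 13 ≤ Fintype.card ι)
    (y : GL ι F) (hy : y ∈ M) (hny : ¬ IsMono (y : Matrix ι ι F)) :
    ∃ g ∈ M, ¬ IsMono (g : Matrix ι ι F) ∧ ∃ i l, (g : Matrix ι ι F) i l = 0 := by
  classical
  by_cases h1 : ∃ i l, (y : Matrix ι ι F) i l = 0
  · exact ⟨y, hy, hny, h1⟩
  set p : GL ι F := y⁻¹ with hp
  have hpM : p ∈ M := M.inv_mem hy
  have hnp : ¬ IsMono (p : Matrix ι ι F) := not_isMono_inv y hny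
  by_cases h3 : ∃ i l, (p : Matrix ι ι F) i l = 0
  · exact ⟨p, hpM, hnp, h3⟩
  push Not at h1 h3
  -- non-constant products
  have hnc : ∃ i l u v, i ≠ l ∧ (y : Matrix ι ι F) i u * (p : Matrix ι ι F) u l ≠
      (y : Matrix ι ι F) i v * (p : Matrix ι ι F) v l := by
    by_contra hcon
    push Not at hcon
    obtain ⟨u₀⟩ : Nonempty ι := Fintype.card_pos_iff.mp (by omega)
    obtain ⟨i, i', l, hii', hil, hi'l⟩ : ∃ i i' l : ι, i ≠ i' ∧ i ≠ l ∧ i' ≠ l := by
      obtain ⟨i, i', hne, -, -⟩ := exists_two_notMem (∅ : Finset ι) (by simp; omega)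
      obtain ⟨l, hl⟩ := exists_notMem_finset ({i, i'} : Finset ι) (by
        have : ({i, i'} : Finset ι).card ≤ 2 := Finset.card_le_two
        omega)
      simp only [Finset.mem_insert, Finset.mem_singleton, not_or] at hl
      exact ⟨i, i', l, hne, Ne.symm hl.1, Ne.symm hl.2⟩
    set a := (y : Matrix ι ι F) i u₀ * (p : Matrix ι ι F) u₀ l with ha
    set a' := (y : Matrix ι ι F) i' u₀ * (p : Matrix ι ι F) u₀ l with ha'
    have ha'0 : a' ≠ 0 := mul_ne_zero (h1 _ _) (h3 _ _)
    have hrel : ∀ j, (y : Matrix ι ι F) i j * a' = (y : Matrix ι ι F) i' j * a := by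
      intro j
      have e1 := hcon i l j u₀ hil
      have e2 := hcon i' l j u₀ hi'l
      apply mul_right_cancel₀ (h3 j l)
      have : (y : Matrix ι ι F) i j * (p : Matrix ι ι F) j l = a := e1
      have e3 : (y : Matrix ι ι F) i' j * (p : Matrix ι ι F) j l = a' := e2
      calc (y : Matrix ι ι F) i j * a' * (p : Matrix ι ι F) j l
          = ((y : Matrix ι ι F) i j * (p : Matrix ι ι F) j l) * a' := by ring
        _ = a * a' := by rw [this]
        _ = ((y : Matrix ι ι F) i' j * (p : Matrix ι ι F) j l) * a := by rw [e3]; ring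
        _ = _ := by ring
    have h4 := gl_mul_apply y i i
    have h5 := gl_mul_apply y i' i
    rw [if_pos rfl] at h4
    rw [if_neg (Ne.symm hii')] at h5
    apply ha'0
    calc a' = (∑ j, (y : Matrix ι ι F) i j * (p : Matrix ι ι F) j i) * a' := by
          rw [show (∑ j, (y : Matrix ι ι F) i j * (p : Matrix ι ι F) j i) = 1 from h4, one_mul]
      _ = ∑ j, ((y : Matrix ι ι F) i j * a') * (p : Matrix ι ι F) j i := by
          rw [Finset.sum_mul]
          refine Finset.sum_congr rfl fun j _ => by ring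
      _ = (∑ j, (y : Matrix ι ι F) i' j * (p : Matrix ι ι F) j i) * a := by
          rw [Finset.sum_mul]
          refine Finset.sum_congr rfl fun j _ => ?_
          rw [hrel]
          ring
      _ = 0 := by
          rw [show (∑ j, (y : Matrix ι ι F) i' j * (p : Matrix ι ι F) j i) = 0 from h5, zero_mul]
  obtain ⟨i, l, u, v, hil, hne⟩ := hnc
  have huv : u ≠ v := by
    rintro rfl
    exact hne rfl
  set Au := (y : Matrix ι ι F) i u * (p : Matrix ι ι F) u l with hAu
  set Av := (y : Matrix ι ι F) i v * (p : Matrix ι ι F) v l with hAv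
  have hAu0 : Au ≠ 0 := mul_ne_zero (h1 _ _) (h3 _ _)
  have hAv0 : Av ≠ 0 := mul_ne_zero (h1 _ _) (h3 _ _)
  set lam : Fˣ := Units.mk0 (Av / Au) (div_ne_zero hAv0 hAu0) with hlam
  have hlamv : (lam : F) = Av / Au := rfl
  have hlam1 : (lam : F) ≠ 1 := by
    rw [hlamv]
    intro h
    apply hne
    field_simp at h
    exact h.symm
  refine ⟨cj y (dd u v lam), cj_mem M hT y hy _ (prod_dd u v huv lam), ?_, i, l, ?_⟩
  · intro hm
    have h4 := col_small y (dd u v lam) {u, v} (fun j hj => by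
      simp only [Finset.mem_insert, Finset.mem_singleton, not_or] at hj
      exact dd_other u v lam j hj.1 hj.2) hm u (by rw [dd_left]; exact hlam1)
    have h5 : ({u, v} : Finset ι).card ≤ 2 := Finset.card_le_two
    have h6 : colSupp (y : Matrix ι ι F) u = Finset.univ := by
      ext x
      simp [mem_colSupp, h1]
    rw [h6, Finset.card_univ] at h4
    omega
  · have h4 := congrFun (col_cj_sub y (dd u v lam) l) i
    simp only [Pi.sub_apply, col, Pi.single_apply, Finset.sum_apply, Pi.smul_apply, smul_eq_mul,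
      if_neg hil, sub_zero] at h4
    rw [h4, Finset.sum_eq_add u v huv]
    · rw [dd_left, dd_right u v huv]
      have h5 : ((lam⁻¹ : Fˣ) : F) = Au / Av := by
        rw [Units.val_inv_eq_inv_val, hlamv]
        field_simp
      rw [h5, hlamv]
      have e1 : (Av / Au - 1) * (p : Matrix ι ι F) u l * (y : Matrix ι ι F) i u = Av - Au := by
        have : (Av / Au - 1) * (p : Matrix ι ι F) u l * (y : Matrix ι ι F) i u = (Av / Au - 1) * Au := by
          rw [hAu]; ring
        rw [this]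
        field_simp
      have e2 : (Au / Av - 1) * (p : Matrix ι ι F) v l * (y : Matrix ι ι F) i v = Au - Av := by
        have : (Au / Av - 1) * (p : Matrix ι ι F) v l * (y : Matrix ι ι F) i v = (Au / Av - 1) * Av := by
          rw [hAv]; ring
        rw [this]
        field_simp
      change (Av / Au - 1) * (p : Matrix ι ι F) u l * (y : Matrix ι ι F) i u +
        (Au / Av - 1) * (p : Matrix ι ι F) v l * (y : Matrix ι ι F) i v = 0
      rw [e1, e2]
      ring
    · intro k _ hk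
      rw [dd_other u v lam k hk.1 hk.2]
      simp
    · simp
    · simp

/-- Conclusion of part A. -/
theorem exists_coord_col [Fintype F] (hq : 5 ≤ Fintype.card F) (hι : 13 ≤ Fintype.card ι)
    (y : GL ι F) (hy : y ∈ M) (hny : ¬ IsMono (y : Matrix ι ι F)) :
    ∃ g ∈ M, ¬ IsMono (g : Matrix ι ι F) ∧ ∃ a, SingCol (g : Matrix ι ι F) a := by
  classical
  obtain ⟨lam, hl⟩ : ∃ lam : Fˣ, (lam : F) ^ 2 ≠ 1 := by
    obtain ⟨x, hx⟩ := exists_notMem_finset ({0, 1, -1} : Finset F) (by
      have : ({0, 1, -1} : Finset F).card ≤ 3 := Finset.card_le_three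
      omega)
    simp only [Finset.mem_insert, Finset.mem_singleton, not_or] at hx
    refine ⟨Units.mk0 x hx.1, ?_⟩
    simp only [Units.val_mk0]
    intro h
    have : (x - 1) * (x + 1) = 0 := by linear_combination h
    rcases mul_eq_zero.mp this with h1 | h1
    · exact hx.2.1 (by linear_combination h1)
    · exact hx.2.2 (by linear_combination h1)
  obtain ⟨g₁, hg₁, hng₁, i, l, hil⟩ := exists_zero_entry M hT hι y hy hny
  obtain ⟨g₂, hg₂, hng₂, l', u, v, huv, hu, hv⟩ := exists_two_zeros M hT hq hι g₁ hg₁ hng₁ i l hil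
  exact exists_sing_of_two_zeros M hT (by omega) lam hl g₂ hg₂ hng₂ l' u v huv hu hv

end Sub

end Cfsg.Agent.Lib.SLC2.MonoA
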