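/-
A subgroup of `GL_J(F)`, `|F| ≥ 5`, containing all monomial matrices and a non-monomial matrix contains an
elementary transvection.  The proof works with the pseudo-reflections conjugate to `diag(μ, 1, ..., 1)`.
-/
import Cfsg.Agent.Lib.SLC2.MonoA
set_option autoImplicit false

namespace Cfsg.Agent.Lib.SLC2.Refl

open Cfsg Cfsg.Geo Cfsg.Agent.Lib.Geo.Basic Cfsg.Agent.Lib.Geo.Centres Cfsg.Agent.Lib.Geo.Parabolic
open Cfsg.Agent.Lib.SLC2.Mono Cfsg.Agent.Lib.SLC2.MonoA
open scoped MatrixGroups Matrix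

variable {J : Type} [Fintype J] [DecidableEq J] {F : Type*} [Field F]

theorem one_add_smul_mul (V : Matrix J J F) (hV : V * V = V) (x y : F) (hxy : x + y + x * y = 0) :
    (1 + x • V) * (1 + y • V) = 1 := by
  rw [mul_add, add_mul, add_mul, one_mul, one_mul, mul_one, smul_mul_smul_comm, hV]
  have : (1 : Matrix J J F) + x • V + (y • V + (x * y) • V) = 1 + (x + y + x * y) • V := by
    simp only [add_smul]
    abel
  rw [this, hxy, zero_smul, add_zero]

/-- The pseudo-reflection `1 + (μ - 1) b ⊗ β`, `β(b) = 1`. -/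
def rg (b β : J → F) (h : β ⬝ᵥ b = 1) (μ : Fˣ) : GL J F where
  val := 1 + ((μ : F) - 1) • Matrix.vecMulVec b β
  inv := 1 + (((μ⁻¹ : Fˣ) : F) - 1) • Matrix.vecMulVec b β
  val_inv := by
    refine one_add_smul_mul _ ?_ _ _ ?_
    · rw [Matrix.vecMulVec_mul_vecMulVec, h, one_smul]
    · have := Units.mul_inv μ
      linear_combination this
  inv_val := by
    refine one_add_smul_mul _ ?_ _ _ ?_
    · rw [Matrix.vecMulVec_mul_vecMulVec, h, one_smul]
    · have := Units.mul_inv μ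
      linear_combination this

theorem coe_rg (b β : J → F) (h : β ⬝ᵥ b = 1) (μ : Fˣ) :
    ((rg b β h μ : GL J F) : Matrix J J F) = 1 + ((μ : F) - 1) • Matrix.vecMulVec b β := rfl

theorem coe_rg_inv (b β : J → F) (h : β ⬝ᵥ b = 1) (μ : Fˣ) :
    (((rg b β h μ)⁻¹ : GL J F) : Matrix J J F) = 1 + (((μ⁻¹ : Fˣ) : F) - 1) • Matrix.vecMulVec b β := rfl

theorem rg_mulVec (b β : J → F) (h : β ⬝ᵥ b = 1) (μ : Fˣ) (x : J → F) :
    ((rg b β h μ : GL J F) : Matrix J J F) *ᵥ x = x + (((μ : F) - 1) * (β ⬝ᵥ x)) • b := by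
  rw [coe_rg, Matrix.add_mulVec, Matrix.one_mulVec, Matrix.smul_mulVec, Matrix.vecMulVec_mulVec]
  ext i
  simp [mul_comm, mul_assoc]

theorem vecMul_rg_inv (b β : J → F) (h : β ⬝ᵥ b = 1) (μ : Fˣ) (φ : J → F) :
    φ ᵥ* (((rg b β h μ)⁻¹ : GL J F) : Matrix J J F) = φ + ((((μ⁻¹ : Fˣ) : F) - 1) * (φ ⬝ᵥ b)) • β := by
  rw [coe_rg_inv, Matrix.vecMul_add, Matrix.vecMul_one, Matrix.vecMul_smul, Matrix.vecMul_vecMulVec]
  ext i
  simp [mul_assoc]

/-- Same centre. -/
theorem rg_mul_inv_same_centre (b β β' : J → F) (h : β ⬝ᵥ b = 1) (h' : β' ⬝ᵥ b = 1) (μ : Fˣ)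
    (h0 : (β' - β) ⬝ᵥ (((μ : F) - 1) • b) = 0) :
    rg b β' h' μ * (rg b β h μ)⁻¹ = transv (((μ : F) - 1) • b) (β' - β) h0 := by
  ext1
  rw [Units.val_mul, coe_rg, coe_rg_inv, coe_transv, transvMat, mul_add, add_mul, add_mul, one_mul, one_mul,
    mul_one, smul_mul_smul_comm, Matrix.vecMulVec_mul_vecMulVec, h', one_smul, Matrix.smul_vecMulVec,
    sub_eq_add_neg β', Matrix.vecMulVec_add, Matrix.vecMulVec_neg]
  have hμ := Units.mul_inv μ
  have : ((μ : F) - 1) * (((μ⁻¹ : Fˣ) : F) - 1) = -(((μ : F) - 1) + (((μ⁻¹ : Fˣ) : F) - 1)) := by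
    linear_combination hμ
  rw [this, neg_add, add_smul, neg_smul, neg_smul]
  simp only [smul_add, smul_neg]
  abel

/-- Same axis. -/
theorem rg_mul_inv_same_axis (b b' β : J → F) (h : β ⬝ᵥ b = 1) (h' : β ⬝ᵥ b' = 1) (μ : Fˣ)
    (h0 : β ⬝ᵥ ((1 - ((μ⁻¹ : Fˣ) : F)) • (b' - b)) = 0) :
    rg b' β h' μ * (rg b β h μ)⁻¹ = transv ((1 - ((μ⁻¹ : Fˣ) : F)) • (b' - b)) β h0 := by
  ext1
  rw [Units.val_mul, coe_rg, coe_rg_inv, coe_transv, transvMat, mul_add, add_mul, add_mul, one_mul, one_mul,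
    mul_one, smul_mul_smul_comm, Matrix.vecMulVec_mul_vecMulVec, h, one_smul, Matrix.smul_vecMulVec,
    sub_eq_add_neg b', Matrix.add_vecMulVec, Matrix.neg_vecMulVec]
  have hμ := Units.mul_inv μ
  have e1 : ((μ : F) - 1) * (((μ⁻¹ : Fˣ) : F) - 1) = -(((μ : F) - 1) + (((μ⁻¹ : Fˣ) : F) - 1)) := by
    linear_combination hμ
  rw [e1, neg_add, add_smul, neg_smul, neg_smul]
  have e2 : (1 - ((μ⁻¹ : Fˣ) : F)) = -(((μ⁻¹ : Fˣ) : F) - 1) := by ring
  rw [e2]
  simp only [smul_add, smul_neg, neg_smul]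
  abel

/-- The group contains an elementary transvection. -/
def HasElem (G : Subgroup (GL J F)) : Prop :=
  ∃ (a b : J) (_ : a ≠ b) (ν : F) (_ : ν ≠ 0) (h : (Pi.single b 1 : J → F) ⬝ᵥ (ν • (Pi.single a 1 : J → F)) = 0),
    transv (ν • (Pi.single a 1 : J → F)) (Pi.single b 1) h ∈ G

theorem transv_congr {u u' φ φ' : J → F} (hu : u = u') (hφ : φ = φ') (h : φ ⬝ᵥ u = 0) (h' : φ' ⬝ᵥ u' = 0) :
    transv u φ h = transv u' φ' h' := by
  subst hu
  subst hφ
  rfl

/-- A function with `κ` at `j`, and `1` elsewhere. -/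
def dup (j : J) (κ : Fˣ) : J → Fˣ := fun x => if x = j then κ else 1

theorem dg_dup_mulVec (j : J) (κ : Fˣ) (x : J → F) (i : J) :
    (((dg (dup j κ) : GL J F) : Matrix J J F) *ᵥ x) i = (if i = j then (κ : F) else 1) * x i := by
  rw [coe_dg, Matrix.mulVec_diagonal]
  simp only [dup]
  split_ifs <;> simp

theorem vecMul_dg_dup_inv (j : J) (κ : Fˣ) (φ : J → F) (i : J) :
    (φ ᵥ* (((dg (dup j κ))⁻¹ : GL J F) : Matrix J J F)) i = φ i * (if i = j then ((κ⁻¹ : Fˣ) : F) else 1) := by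
  change (φ ᵥ* (Matrix.diagonal fun a => (((dup j κ a)⁻¹ : Fˣ) : F))) i = _
  rw [Matrix.vecMul_diagonal]
  simp only [dup]
  split_ifs <;> simp

section Group

variable (G : Subgroup (GL J F))

/-- The pairs (centre, axis) of pseudo-reflections coming from conjugates of coordinate ones. -/
def RP (b β : J → F) : Prop :=
  ∃ g ∈ G, ∃ j, b = col (g : Matrix J J F) j ∧ β = fun l => ((g⁻¹ : GL J F) : Matrix J J F) j l

variable {G}

theorem RP.dot {b β : J → F} (h : RP G b β) : β ⬝ᵥ b = 1 := by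
  obtain ⟨g, -, j, rfl, rfl⟩ := h
  have := gl_inv_mul_apply g j j
  rw [if_pos rfl] at this
  exact this

theorem RP.act {b β : J → F} (h : RP G b β) {k : GL J F} (hk : k ∈ G) :
    RP G ((k : Matrix J J F) *ᵥ b) (β ᵥ* ((k⁻¹ : GL J F) : Matrix J J F)) := by
  obtain ⟨g, hg, j, rfl, rfl⟩ := h
  refine ⟨k * g, G.mul_mem hk hg, j, ?_, ?_⟩
  · rw [mulVec_col, Units.val_mul]
  · ext l
    rw [mul_inv_rev, Units.val_mul, Matrix.mul_apply]
    rfl

theorem RP.one (j : J) : RP G (Pi.single j 1) (Pi.single j 1) := by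
  refine ⟨1, G.one_mem, j, ?_, ?_⟩
  · ext i
    simp [col, Matrix.one_apply, Pi.single_apply]
  · ext l
    simp [Matrix.one_apply, Pi.single_apply, eq_comm]

theorem RP.rg_mem (hD : ∀ t : J → Fˣ, dg t ∈ G) {b β : J → F} (h : RP G b β) (μ : Fˣ) :
    rg b β h.dot μ ∈ G := by
  have hdot := h.dot
  obtain ⟨g, hg, j, rfl, rfl⟩ := h
  have : rg (col (g : Matrix J J F) j) (fun l => ((g⁻¹ : GL J F) : Matrix J J F) j l) hdot μ = cj g (dup j μ) := by
    ext1
    ext i l
    have h1 := congrFun (col_cj_sub g (dup j μ) l) i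
    simp only [Pi.sub_apply, col, Pi.single_apply, Finset.sum_apply, Pi.smul_apply, smul_eq_mul] at h1
    rw [Finset.sum_eq_single j] at h1
    · rw [coe_rg, Matrix.add_apply, Matrix.one_apply, Matrix.smul_apply, Matrix.vecMulVec_apply]
      simp only [smul_eq_mul, col]
      have h2 : ((dup j μ j : Fˣ) : F) = μ := by simp [dup]
      rw [h2] at h1
      have h3 : ((cj g (dup j μ) : GL J F) : Matrix J J F) i l =
          ((μ : F) - 1) * ((g⁻¹ : GL J F) : Matrix J J F) j l * (g : Matrix J J F) i j + if i = l then 1 else 0 := by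
        rw [← h1]
        ring
      rw [h3]
      ring
    · intro x _ hx
      simp [dup, hx]
    · simp
  rw [this]
  exact G.mul_mem (G.mul_mem hg (hD _)) (G.inv_mem hg)

/-- Combination of two pairs. -/
theorem RP.step (hD : ∀ t : J → Fˣ, dg t ∈ G) {b β b' β' : J → F} (h : RP G b β) (h' : RP G b' β') (μ : Fˣ) :
    RP G (b' + (((μ : F) - 1) * (β ⬝ᵥ b')) • b) (β' + ((((μ⁻¹ : Fˣ) : F) - 1) * (β' ⬝ᵥ b)) • β) := by
  have := h'.act (h.rg_mem hD μ)
  rwa [rg_mulVec, vecMul_rg_inv] at this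

/-- The centre step: a transvection with axis `e_x` gives an elementary transvection. -/
theorem hasElem_of_axis (hD : ∀ t : J → Fˣ, dg t ∈ G) (κ : Fˣ) (hκ : (κ : F) ≠ 1) (u : J → F) (x y : J) (hyx : y ≠ x)
    (huy : u y ≠ 0) (h : (Pi.single x 1 : J → F) ⬝ᵥ u = 0)
    (hT : transv u (Pi.single x 1) h ∈ G) : HasElem G := by
  have hκ1 : (κ : F) - 1 ≠ 0 := sub_ne_zero.mpr hκ
  have h1 := G.mul_mem (G.mul_mem (hD (dup y κ)) hT) (G.inv_mem (hD (dup y κ)))
  rw [conj_transv'] at h1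
  have h2 := G.mul_mem h1 (G.inv_mem hT)
  have hφ : (Pi.single x 1 : J → F) ᵥ* (((dg (dup y κ))⁻¹ : GL J F) : Matrix J J F) = Pi.single x 1 := by
    ext i
    rw [vecMul_dg_dup_inv]
    by_cases hi : i = y
    · rw [if_pos hi, hi, Pi.single_eq_of_ne hyx, zero_mul]
    · rw [if_neg hi, mul_one]
  have hdot1 : (Pi.single x 1 : J → F) ⬝ᵥ (((dg (dup y κ) : GL J F) : Matrix J J F) *ᵥ u) = 0 := by
    rw [single_one_dotProduct, dg_dup_mulVec]
    have : u x = 0 := by simpa [single_one_dotProduct] using h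
    rw [this, mul_zero]
  have h3 : transv (((dg (dup y κ) : GL J F) : Matrix J J F) *ᵥ u) ((Pi.single x 1 : J → F) ᵥ*
      (((dg (dup y κ))⁻¹ : GL J F) : Matrix J J F)) (by rw [dotProduct_conj_eq, h]) =
      transv (((dg (dup y κ) : GL J F) : Matrix J J F) *ᵥ u) (Pi.single x 1) hdot1 :=
    transv_congr rfl hφ _ _
  rw [h3, transv_inv_eq, transv_mul_same_right] at h2
  have hval : ((dg (dup y κ) : GL J F) : Matrix J J F) *ᵥ u + -u =
      (((κ : F) - 1) * u y) • (Pi.single y 1 : J → F) := by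
    ext i
    simp only [Pi.add_apply, Pi.neg_apply, Pi.smul_apply, smul_eq_mul, dg_dup_mulVec, Pi.single_apply]
    by_cases hi : i = y
    · rw [if_pos hi, if_pos hi, hi]
      ring
    · rw [if_neg hi, if_neg hi]
      ring
  have hdot2 : (Pi.single x 1 : J → F) ⬝ᵥ ((((κ : F) - 1) * u y) • (Pi.single y 1 : J → F)) = 0 := by
    rw [dotProduct_smul, single_one_dotProduct, Pi.single_eq_of_ne (Ne.symm hyx), smul_zero]
  refine ⟨y, x, hyx, _, mul_ne_zero hκ1 huy, hdot2, ?_⟩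
  rwa [transv_congr hval rfl _ hdot2] at h2

/-- The axis step: a transvection with centre `ν e_h` gives an elementary transvection. -/
theorem hasElem_of_centre (hD : ∀ t : J → Fˣ, dg t ∈ G) (κ : Fˣ) (hκ : (κ : F) ≠ 1) (ν : F) (hν : ν ≠ 0) (φ : J → F)
    (h' y : J) (hyh : y ≠ h') (hφy : φ y ≠ 0)
    (h : φ ⬝ᵥ (ν • (Pi.single h' 1 : J → F)) = 0)
    (hT : transv (ν • (Pi.single h' 1 : J → F)) φ h ∈ G) : HasElem G := by
  have hκ1 : ((κ⁻¹ : Fˣ) : F) - 1 ≠ 0 := by
    intro h0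
    apply hκ
    have h1 : ((κ⁻¹ : Fˣ) : F) * (κ : F) = 1 := by simp
    rw [show ((κ⁻¹ : Fˣ) : F) = 1 by linear_combination h0, one_mul] at h1
    exact h1
  have h1 := G.mul_mem (G.mul_mem (hD (dup y κ)) hT) (G.inv_mem (hD (dup y κ)))
  rw [conj_transv'] at h1
  have hu : ((dg (dup y κ) : GL J F) : Matrix J J F) *ᵥ (ν • (Pi.single h' 1 : J → F)) =
      ν • (Pi.single h' 1 : J → F) := by
    ext i
    rw [dg_dup_mulVec]
    by_cases hi : i = y
    · rw [if_pos hi, hi]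
      simp [hyh]
    · rw [if_neg hi, one_mul]
  have hdot1 : (φ ᵥ* (((dg (dup y κ))⁻¹ : GL J F) : Matrix J J F)) ⬝ᵥ (ν • (Pi.single h' 1 : J → F)) = 0 := by
    have := dotProduct_conj_eq (dg (dup y κ)) (ν • (Pi.single h' 1 : J → F)) φ
    rw [hu, h] at this
    exact this
  rw [transv_congr hu rfl _ hdot1] at h1
  have h2 := G.mul_mem h1 (G.inv_mem hT)
  have hneg : -(ν • (Pi.single h' 1 : J → F)) = (-ν) • (Pi.single h' 1 : J → F) := by simp
  have hdotneg : φ ⬝ᵥ (-(ν • (Pi.single h' 1 : J → F))) = 0 := by simpa using h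
  rw [transv_inv_eq] at h2
  -- compute directly with matrices
  have hφ' : φ ᵥ* (((dg (dup y κ))⁻¹ : GL J F) : Matrix J J F) - φ =
      ((((κ⁻¹ : Fˣ) : F) - 1) * φ y) • (Pi.single y 1 : J → F) := by
    ext i
    simp only [Pi.sub_apply, Pi.smul_apply, smul_eq_mul, vecMul_dg_dup_inv, Pi.single_apply]
    by_cases hi : i = y
    · rw [if_pos hi, if_pos hi, hi]
      ring
    · rw [if_neg hi, if_neg hi]
      ring
  have hprod : ∀ (φ₁ φ₂ : J → F) (h₁ : φ₁ ⬝ᵥ (ν • (Pi.single h' 1 : J → F)) = 0)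
      (h₂ : φ₂ ⬝ᵥ (-(ν • (Pi.single h' 1 : J → F))) = 0)
      (h₃ : (φ₁ - φ₂) ⬝ᵥ (ν • (Pi.single h' 1 : J → F)) = 0),
      transv (ν • (Pi.single h' 1 : J → F)) φ₁ h₁ * transv (-(ν • (Pi.single h' 1 : J → F))) φ₂ h₂ =
        transv (ν • (Pi.single h' 1 : J → F)) (φ₁ - φ₂) h₃ := by
    intro φ₁ φ₂ h₁ h₂ h₃
    ext1
    rw [Units.val_mul, coe_transv, coe_transv, coe_transv, transvMat_mul_transvMat _ _ _ _ (by
      rw [dotProduct_neg, h₁, neg_zero]), transvMat, Matrix.neg_vecMulVec, sub_eq_add_neg, Matrix.vecMulVec_add,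
      Matrix.vecMulVec_neg]
    abel
  have hdot3 : (φ ᵥ* (((dg (dup y κ))⁻¹ : GL J F) : Matrix J J F) - φ) ⬝ᵥ (ν • (Pi.single h' 1 : J → F)) = 0 := by
    rw [sub_dotProduct, hdot1, h, sub_zero]
  rw [hprod _ _ hdot1 hdotneg hdot3] at h2
  have hdot4 : (Pi.single y 1 : J → F) ⬝ᵥ ((ν * ((((κ⁻¹ : Fˣ) : F) - 1) * φ y)) • (Pi.single h' 1 : J → F)) = 0 := by
    rw [dotProduct_smul, single_one_dotProduct, Pi.single_eq_of_ne hyh, smul_zero]
  refine ⟨h', y, Ne.symm hyh, _, mul_ne_zero hν (mul_ne_zero hκ1 hφy), hdot4, ?_⟩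
  have : transv (ν • (Pi.single h' 1 : J → F)) (φ ᵥ* (((dg (dup y κ))⁻¹ : GL J F) : Matrix J J F) - φ) hdot3 =
      transv ((ν * ((((κ⁻¹ : Fˣ) : F) - 1) * φ y)) • (Pi.single h' 1 : J → F)) (Pi.single y 1) hdot4 := by
    ext1
    rw [coe_transv, coe_transv, transvMat, transvMat, hφ', Matrix.vecMulVec_smul, Matrix.smul_vecMulVec,
      Matrix.smul_vecMulVec, smul_smul]
    congr 2
    ring
  rwa [this] at h2

/-- The centre of a reflection misses a coordinate of the axis. -/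
theorem hasElem_left (hD : ∀ t : J → Fˣ, dg t ∈ G) (κ : Fˣ) (hκ : (κ : F) ≠ 1) {b β : J → F} (h : RP G b β) (x : J)
    (hbx : b x = 0) (hβx : β x ≠ 0) : HasElem G := by
  have hκ1 : (κ : F) - 1 ≠ 0 := sub_ne_zero.mpr hκ
  have hκ2 : ((κ⁻¹ : Fˣ) : F) - 1 ≠ 0 := by
    intro h0
    apply hκ
    have h1 : ((κ⁻¹ : Fˣ) : F) * (κ : F) = 1 := by simp
    rw [show ((κ⁻¹ : Fˣ) : F) = 1 by linear_combination h0, one_mul] at h1
    exact h1
  have hRP := h.act (hD (dup x κ))
  have hb : ((dg (dup x κ) : GL J F) : Matrix J J F) *ᵥ b = b := by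
    ext i
    rw [dg_dup_mulVec]
    by_cases hi : i = x
    · rw [hi, hbx, mul_zero]
    · rw [if_neg hi, one_mul]
  rw [hb] at hRP
  set β' := β ᵥ* (((dg (dup x κ))⁻¹ : GL J F) : Matrix J J F) with hβ'
  have h3 := G.mul_mem (hRP.rg_mem hD κ) (G.inv_mem (h.rg_mem hD κ))
  have hdiff : β' - β = ((((κ⁻¹ : Fˣ) : F) - 1) * β x) • (Pi.single x 1 : J → F) := by
    ext i
    simp only [hβ', Pi.sub_apply, Pi.smul_apply, smul_eq_mul, vecMul_dg_dup_inv, Pi.single_apply]
    by_cases hi : i = x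
    · rw [if_pos hi, if_pos hi, hi]
      ring
    · rw [if_neg hi, if_neg hi]
      ring
  have h0 : (β' - β) ⬝ᵥ (((κ : F) - 1) • b) = 0 := by
    rw [dotProduct_smul, sub_dotProduct, hRP.dot, h.dot, sub_self, smul_zero]
  rw [rg_mul_inv_same_centre b β β' h.dot hRP.dot κ h0] at h3
  have hbne : ∃ y, b y ≠ 0 := by
    by_contra hcon
    push Not at hcon
    have : b = 0 := funext hcon
    have h1 := h.dot
    rw [this, dotProduct_zero] at h1
    exact zero_ne_one h1
  obtain ⟨y, hy⟩ := hbne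
  have hyx : y ≠ x := by
    rintro rfl
    exact hy hbx
  have hdot : (Pi.single x 1 : J → F) ⬝ᵥ ((((κ : F) - 1) * (((κ⁻¹ : Fˣ) : F) - 1) * β x) • b) = 0 := by
    rw [dotProduct_smul, single_one_dotProduct, hbx, smul_zero]
  refine hasElem_of_axis hD κ hκ _ x y hyx ?_ hdot ?_
  · simp only [Pi.smul_apply, smul_eq_mul]
    exact mul_ne_zero (mul_ne_zero (mul_ne_zero hκ1 hκ2) hβx) hy
  · have : transv (((κ : F) - 1) • b) (β' - β) h0 =
        transv ((((κ : F) - 1) * (((κ⁻¹ : Fˣ) : F) - 1) * β x) • b) (Pi.single x 1) hdot := by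
      ext1
      rw [coe_transv, coe_transv, transvMat, transvMat, hdiff, Matrix.vecMulVec_smul, Matrix.smul_vecMulVec,
        Matrix.smul_vecMulVec, smul_smul]
      congr 2
      ring
    rwa [this] at h3

/-- The axis of a reflection misses a coordinate of the centre. -/
theorem hasElem_right (hD : ∀ t : J → Fˣ, dg t ∈ G) (κ : Fˣ) (hκ : (κ : F) ≠ 1) {b β : J → F} (h : RP G b β) (x : J)
    (hβx : β x = 0) (hbx : b x ≠ 0) : HasElem G := by
  have hκ1 : (κ : F) - 1 ≠ 0 := sub_ne_zero.mpr hκ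
  have hκ2 : 1 - ((κ⁻¹ : Fˣ) : F) ≠ 0 := by
    intro h0
    apply hκ
    have h1 : ((κ⁻¹ : Fˣ) : F) * (κ : F) = 1 := by simp
    rw [show ((κ⁻¹ : Fˣ) : F) = 1 by linear_combination -h0, one_mul] at h1
    exact h1
  have hRP := h.act (hD (dup x κ))
  have hβ : β ᵥ* (((dg (dup x κ))⁻¹ : GL J F) : Matrix J J F) = β := by
    ext i
    rw [vecMul_dg_dup_inv]
    by_cases hi : i = x
    · rw [hi, hβx, zero_mul]
    · rw [if_neg hi, mul_one]
  rw [hβ] at hRP
  set b' := ((dg (dup x κ) : GL J F) : Matrix J J F) *ᵥ b with hb'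
  have h3 := G.mul_mem (hRP.rg_mem hD κ) (G.inv_mem (h.rg_mem hD κ))
  have hdiff : b' - b = (((κ : F) - 1) * b x) • (Pi.single x 1 : J → F) := by
    ext i
    simp only [hb', Pi.sub_apply, Pi.smul_apply, smul_eq_mul, dg_dup_mulVec, Pi.single_apply]
    by_cases hi : i = x
    · rw [if_pos hi, if_pos hi, hi]
      ring
    · rw [if_neg hi, if_neg hi]
      ring
  have h0 : β ⬝ᵥ ((1 - ((κ⁻¹ : Fˣ) : F)) • (b' - b)) = 0 := by
    rw [dotProduct_smul, dotProduct_sub, hRP.dot, h.dot, sub_self, smul_zero]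
  rw [rg_mul_inv_same_axis b b' β h.dot hRP.dot κ h0] at h3
  have hβne : ∃ y, β y ≠ 0 := by
    by_contra hcon
    push Not at hcon
    have : β = 0 := funext hcon
    have h1 := h.dot
    rw [this, zero_dotProduct] at h1
    exact zero_ne_one h1
  obtain ⟨y, hy⟩ := hβne
  have hyx : y ≠ x := by
    rintro rfl
    exact hy hβx
  have hdot : β ⬝ᵥ (((1 - ((κ⁻¹ : Fˣ) : F)) * (((κ : F) - 1) * b x)) • (Pi.single x 1 : J → F)) = 0 := by
    rw [dotProduct_smul, dotProduct_single, hβx]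
    simp
  refine hasElem_of_centre hD κ hκ _ (mul_ne_zero hκ2 (mul_ne_zero hκ1 hbx)) β x y hyx hy hdot ?_
  have : (1 - ((κ⁻¹ : Fˣ) : F)) • (b' - b) = ((1 - ((κ⁻¹ : Fˣ) : F)) * (((κ : F) - 1) * b x)) • (Pi.single x 1 : J → F) := by
    rw [hdiff, smul_smul]
  rwa [transv_congr this rfl h0 hdot] at h3

/-- A diagonal product `b_k β_k` different from `0`, `1`, `1/2` gives an elementary transvection. -/
theorem hasElem_gamma (hD : ∀ t : J → Fˣ, dg t ∈ G) (κ : Fˣ) (hκ : (κ : F) ≠ 1) {b β : J → F} (h : RP G b β) (k : J)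
    (h0 : b k * β k ≠ 0) (h1 : b k * β k ≠ 1) (h2 : 2 * (b k * β k) ≠ 1) : HasElem G := by
  set γ := b k * β k with hγ
  have hγ1 : γ - 1 ≠ 0 := sub_ne_zero.mpr h1
  have hne : (γ - 1) / γ ≠ 0 := div_ne_zero hγ1 h0
  set μ : Fˣ := Units.mk0 _ hne with hμ
  have hμv : (μ : F) = (γ - 1) / γ := rfl
  have hμi : ((μ⁻¹ : Fˣ) : F) = γ / (γ - 1) := by
    rw [Units.val_inv_eq_inv_val, hμv, inv_div]
  have hs := h.step hD (RP.one (G := G) k) μ
  refine hasElem_left hD κ hκ hs k ?_ ?_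
  · simp only [Pi.add_apply, Pi.smul_apply, smul_eq_mul, Pi.single_eq_same, dotProduct_single, mul_one]
    rw [hμv]
    have : 1 + ((γ - 1) / γ - 1) * β k * b k = 1 + ((γ - 1) / γ - 1) * γ := by
      rw [hγ]
      ring
    rw [this]
    field_simp
    ring
  · simp only [Pi.add_apply, Pi.smul_apply, smul_eq_mul, Pi.single_eq_same, single_one_dotProduct]
    rw [hμi]
    have : 1 + (γ / (γ - 1) - 1) * b k * β k = (2 * γ - 1) / (γ - 1) := by
      have e : 1 + (γ / (γ - 1) - 1) * b k * β k = 1 + (γ / (γ - 1) - 1) * γ := by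
        rw [hγ]
        ring
      rw [e]
      field_simp
      ring
    rw [this]
    exact div_ne_zero (by
      intro h3
      apply h2
      linear_combination h3) hγ1

/-- The case of the field with five elements. -/
theorem q5_false (h5 : (5 : F) = 0) (hJ : 3 ≤ Fintype.card J) (hD : ∀ t : J → Fˣ, dg t ∈ G)
    (hP : ∀ σ : Equiv.Perm J, pm σ ∈ G)
    (R1a : ∀ {b β : J → F}, RP G b β → ∀ x, b x = 0 → β x = 0)
    (R1b : ∀ {b β : J → F}, RP G b β → ∀ x, β x = 0 → b x = 0)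
    (R2 : ∀ {b β : J → F}, RP G b β → ∀ k, b k * β k ≠ 0 → b k * β k = 1 ∨ 2 * (b k * β k) = 1)
    (R3 : ∀ {b β : J → F}, RP G b β → ∀ k h, k ≠ h → b k ≠ 0 → b h ≠ 0 → ∀ μ : Fˣ, (μ : F) ≠ 1 →
      ((μ : F) - 1) * (((μ⁻¹ : Fˣ) : F) - 1) * ((b k * β k) * (b h * β h)) = 1 ∨
      2 * (((μ : F) - 1) * (((μ⁻¹ : Fˣ) : F) - 1) * ((b k * β k) * (b h * β h))) = 1)
    {b β : J → F} (hR : RP G b β) (k h : J) (hkh : k ≠ h) (hbk : b k ≠ 0) (hbh : b h ≠ 0) : False := by
  classical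
  have n1 : (1 : F) ≠ 0 := one_ne_zero
  have n2 : (2 : F) ≠ 0 := by
    intro h0
    apply n1
    linear_combination h5 - 2 * h0
  have n21 : (2 : F) ≠ 1 := by
    intro h0
    apply n1
    linear_combination h0
  have nm1 : (-1 : F) ≠ 1 := by
    intro h0
    apply n2
    linear_combination -h0
  set u2 : Fˣ := Units.mk0 2 n2 with hu2
  have hu2v : (u2 : F) = 2 := rfl
  have hu2i : ((u2⁻¹ : Fˣ) : F) = 3 := by
    rw [Units.val_inv_eq_inv_val, hu2v]
    exact inv_eq_of_mul_eq_one_right (by linear_combination h5)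
  have hum : ((-1 : Fˣ) : F) = -1 := by simp
  have humi : (((-1 : Fˣ)⁻¹ : Fˣ) : F) = -1 := by simp
  -- all the non-zero diagonal values are `1/2`
  have Q5a : ∀ {b β : J → F}, RP G b β → ∀ k h, k ≠ h → b k ≠ 0 → b h ≠ 0 →
      2 * (b k * β k) = 1 ∧ 2 * (b h * β h) = 1 := by
    intro b β hR k h hkh hbk hbh
    have hβk : β k ≠ 0 := fun h0 => hbk (R1b hR k h0)
    have hβh : β h ≠ 0 := fun h0 => hbh (R1b hR h h0)
    have r2 := R3 hR k h hkh hbk hbh u2 (by rw [hu2v]; exact n21)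
    have rm := R3 hR k h hkh hbk hbh (-1) (by rw [hum]; exact nm1)
    rw [hu2v, hu2i] at r2
    rw [hum, humi] at rm
    have hx := R2 hR k (mul_ne_zero hbk hβk)
    have hy := R2 hR h (mul_ne_zero hbh hβh)
    generalize b k * β k = x at *
    generalize b h * β h = y at *
    rcases hx with hx | hx
    · exfalso
      rcases hy with hy | hy
      · rw [hx, hy] at r2
        rcases r2 with r2 | r2
        · apply n1
          linear_combination r2
        · apply n1
          linear_combination 2 * r2 - h5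
      · rw [hx] at rm
        rcases rm with rm | rm
        · apply n1
          linear_combination rm - 2 * hy
        · apply n1
          linear_combination 2 * rm - 8 * hy - h5
    · rcases hy with hy | hy
      · exfalso
        rw [hy] at rm
        rcases rm with rm | rm
        · apply n1
          linear_combination rm - 2 * hx
        · apply n1
          linear_combination 2 * rm - 8 * hx - h5
      · exact ⟨hx, hy⟩
  -- support of size at most two
  have Q5b : ∀ m, m ≠ k → m ≠ h → b m = 0 := by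
    intro m hmk hmh
    by_contra hbm
    have hs := hR.step hD (RP.one (G := G) k) (-1)
    have hcm : ∀ x, x ≠ k → ((Pi.single k 1 : J → F) + (((((-1 : Fˣ) : F) - 1) * (β ⬝ᵥ Pi.single k 1)) • b)) x =
        (((-1 : F) - 1) * β k) * b x := by
      intro x hx
      simp only [Pi.add_apply, Pi.smul_apply, smul_eq_mul, Pi.single_apply, if_neg hx, zero_add,
        dotProduct_single, mul_one, hum]
    have hβk : β k ≠ 0 := fun h0 => hbk (R1b hR k h0)
    have hne2 : (-1 : F) - 1 ≠ 0 := by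
      intro h0
      apply n2
      linear_combination -h0
    have hc1 := Q5a hs h m (Ne.symm hmh) (by
      rw [hcm h (Ne.symm hkh)]
      exact mul_ne_zero (mul_ne_zero hne2 hβk) hbh) (by
      rw [hcm m hmk]
      exact mul_ne_zero (mul_ne_zero hne2 hβk) hbm)
    have hab := Q5a hR k h hkh hbk hbh
    have h1 := hc1.1
    simp only [Pi.add_apply, Pi.smul_apply, smul_eq_mul, Pi.single_apply, if_neg (Ne.symm hkh), zero_add,
      dotProduct_single, single_one_dotProduct, mul_one] at h1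
    rw [hum, humi] at h1
    apply n1
    have e1 := hab.1
    have e2 := hab.2
    -- `2 * 4 x y = 2`
    linear_combination h1 - 4 * (b h * β h) * e1 - 2 * e2
  obtain ⟨m, hmk, hmh⟩ : ∃ m, m ≠ k ∧ m ≠ h := by
    obtain ⟨m, hm⟩ := exists_notMem_finset ({k, h} : Finset J) (by
      have : ({k, h} : Finset J).card ≤ 2 := Finset.card_le_two
      omega)
    simp only [Finset.mem_insert, Finset.mem_singleton, not_or] at hm
    exact ⟨m, hm.1, hm.2⟩
  have hbm := Q5b m hmk hmh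
  have hβm := R1a hR m hbm
  set σ : Equiv.Perm J := Equiv.swap k m with hσ
  have hs0 := hR.act (hP σ)
  rw [pm_mulVec, vecMul_pm_inv] at hs0
  have hs := hR.step hD hs0 u2
  have hσk : σ k = m := Equiv.swap_apply_left _ _
  have hσm : σ m = k := Equiv.swap_apply_right _ _
  have hσo : ∀ x, x ≠ k → x ≠ m → σ x = x := fun x h1 h2 => Equiv.swap_apply_of_ne_of_ne h1 h2
  have hβk : β k ≠ 0 := fun h0 => hbk (R1b hR k h0)
  have hdot := hR.dot
  have D1 : β ⬝ᵥ (b ∘ σ) = 1 - b k * β k := by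
    have : β ⬝ᵥ (b ∘ σ) - β ⬝ᵥ b = - (b k * β k) := by
      rw [← dotProduct_sub]
      simp only [dotProduct, Pi.sub_apply, Function.comp]
      rw [Finset.sum_eq_single k]
      · rw [hσk, hbm]
        ring
      · intro x _ hx
        by_cases hxm : x = m
        · rw [hxm, hβm, zero_mul]
        · rw [hσo x hx hxm]
          ring
      · simp
    rw [hdot] at this
    linear_combination this
  have D2 : (β ∘ σ) ⬝ᵥ b = 1 - b k * β k := by
    have : (β ∘ σ) ⬝ᵥ b - β ⬝ᵥ b = - (b k * β k) := by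
      rw [← sub_dotProduct]
      simp only [dotProduct, Pi.sub_apply, Function.comp]
      rw [Finset.sum_eq_single k]
      · rw [hσk, hβm]
        ring
      · intro x _ hx
        by_cases hxm : x = m
        · rw [hxm, hbm, mul_zero]
        · rw [hσo x hx hxm]
          ring
      · simp
    rw [hdot] at this
    linear_combination this
  have hab := (Q5a hR k h hkh hbk hbh).1
  rw [D1, D2, hu2v, hu2i] at hs
  set γ := b k * β k with hγ
  have hγ0 : γ ≠ 0 := mul_ne_zero hbk hβk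
  have hδ : 2 * (1 - γ) = 1 := by linear_combination -hab
  have hδ0 : 1 - γ ≠ 0 := by
    intro h0
    rw [h0] at hδ
    apply n1
    linear_combination -hδ
  have hr := R2 hs k
  simp only [Pi.add_apply, Pi.smul_apply, smul_eq_mul, Function.comp, hσk, hbm, hβm, zero_add] at hr
  have hval : (2 - 1) * (1 - γ) * b k * ((3 - 1) * (1 - γ) * β k) = 2 * (1 - γ) ^ 2 * γ := by
    rw [hγ]
    ring
  rw [hval] at hr
  have h4 : 4 * (2 * (1 - γ) ^ 2 * γ) = 1 := by
    have : 4 * (2 * (1 - γ) ^ 2 * γ) = (2 * (1 - γ)) ^ 2 * (2 * γ) := by ring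
    rw [this, hδ, hab]
    ring
  rcases hr (mul_ne_zero (mul_ne_zero n2 (pow_ne_zero 2 hδ0)) hγ0) with h6 | h6
  · rw [h6] at h4
    apply n1
    linear_combination 2 * h4 - h5
  · apply n1
    linear_combination h4 - 2 * h6

open Polynomial in
/-- The main theorem of this file. -/
theorem hasElem_of_not_mono [Fintype F] (hq : 5 ≤ Fintype.card F) (hJ : 3 ≤ Fintype.card J)
    (hMono : ∀ g : GL J F, IsMono (g : Matrix J J F) → g ∈ G)
    (k₀ : GL J F) (hk₀ : k₀ ∈ G) (hnk : ¬ IsMono (k₀ : Matrix J J F)) : HasElem G := by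
  classical
  have hD : ∀ t : J → Fˣ, dg t ∈ G := fun t => hMono _ (isMono_dg t)
  by_contra hno
  obtain ⟨κ, hκ⟩ : ∃ κ : Fˣ, (κ : F) ≠ 1 := by
    obtain ⟨x, hx⟩ := exists_notMem_finset ({0, 1} : Finset F) (by
      have : ({0, 1} : Finset F).card ≤ 2 := Finset.card_le_two
      omega)
    simp only [Finset.mem_insert, Finset.mem_singleton, not_or] at hx
    exact ⟨Units.mk0 x hx.1, hx.2⟩
  have R1a : ∀ {b β : J → F}, RP G b β → ∀ x, b x = 0 → β x = 0 := by
    intro b β h x hb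
    by_contra hβ
    exact hno (hasElem_left hD κ hκ h x hb hβ)
  have R1b : ∀ {b β : J → F}, RP G b β → ∀ x, β x = 0 → b x = 0 := by
    intro b β h x hβ
    by_contra hb
    exact hno (hasElem_right hD κ hκ h x hβ hb)
  have R2 : ∀ {b β : J → F}, RP G b β → ∀ k, b k * β k ≠ 0 → b k * β k = 1 ∨ 2 * (b k * β k) = 1 := by
    intro b β h k h0
    by_contra hcon
    push Not at hcon
    exact hno (hasElem_gamma hD κ hκ h k h0 hcon.1 hcon.2)
  have R3 : ∀ {b β : J → F}, RP G b β → ∀ k h, k ≠ h → b k ≠ 0 → b h ≠ 0 → ∀ μ : Fˣ, (μ : F) ≠ 1 →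
      ((μ : F) - 1) * (((μ⁻¹ : Fˣ) : F) - 1) * ((b k * β k) * (b h * β h)) = 1 ∨
      2 * (((μ : F) - 1) * (((μ⁻¹ : Fˣ) : F) - 1) * ((b k * β k) * (b h * β h))) = 1 := by
    intro b β hR k h hkh hbk hbh μ hμ
    have hs := hR.step hD (RP.one (G := G) k) μ
    have hβk : β k ≠ 0 := fun h0 => hbk (R1b hR k h0)
    have hβh : β h ≠ 0 := fun h0 => hbh (R1b hR h h0)
    have hμ1 : (μ : F) - 1 ≠ 0 := sub_ne_zero.mpr hμ
    have hμ2 : ((μ⁻¹ : Fˣ) : F) - 1 ≠ 0 := by
      intro h0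
      apply hμ
      have h1 : ((μ⁻¹ : Fˣ) : F) * (μ : F) = 1 := by simp
      rw [show ((μ⁻¹ : Fˣ) : F) = 1 by linear_combination h0, one_mul] at h1
      exact h1
    have hr := R2 hs h
    simp only [Pi.add_apply, Pi.smul_apply, smul_eq_mul, Pi.single_apply, if_neg (Ne.symm hkh), zero_add,
      dotProduct_single, single_one_dotProduct, mul_one] at hr
    have hval : ((μ : F) - 1) * β k * b h * ((((μ⁻¹ : Fˣ) : F) - 1) * b k * β h) =
        ((μ : F) - 1) * (((μ⁻¹ : Fˣ) : F) - 1) * ((b k * β k) * (b h * β h)) := by ring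
    rw [hval] at hr
    exact hr (mul_ne_zero (mul_ne_zero hμ1 hμ2) (mul_ne_zero (mul_ne_zero hbk hβk) (mul_ne_zero hbh hβh)))
  -- the start
  obtain ⟨a, ha⟩ : ∃ a, ¬ SingCol (k₀ : Matrix J J F) a := by
    by_contra hcon
    push Not at hcon
    exact hnk hcon
  have hns : ∀ c, ∃ i, i ≠ c ∧ (k₀ : Matrix J J F) i a ≠ 0 := by
    intro c
    by_contra hcon
    push Not at hcon
    exact ha ⟨c, hcon⟩
  obtain ⟨k, -, hk⟩ : ∃ k, k ≠ a ∧ (k₀ : Matrix J J F) k a ≠ 0 := hns a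
  obtain ⟨h, hhk, hh⟩ := hns k
  have hR : RP G (col (k₀ : Matrix J J F) a) (fun l => ((k₀⁻¹ : GL J F) : Matrix J J F) a l) :=
    ⟨k₀, hk₀, a, rfl, rfl⟩
  set b := col (k₀ : Matrix J J F) a with hb
  set β : J → F := (fun l => ((k₀⁻¹ : GL J F) : Matrix J J F) a l) with hβ
  have hbk : b k ≠ 0 := hk
  have hbh : b h ≠ 0 := hh
  have hβk : β k ≠ 0 := fun h0 => hbk (R1b hR k h0)
  have hβh : β h ≠ 0 := fun h0 => hbh (R1b hR h h0)
  by_cases h5 : Fintype.card F = 5
  · have h50 : (5 : F) = 0 := by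
      have := FiniteField.cast_card_eq_zero F
      rw [h5] at this
      exact_mod_cast this
    exact q5_false h50 hJ hD (fun σ => hMono _ (isMono_pm σ)) R1a R1b R2 R3 hR k h (Ne.symm hhk) hbk hbh
  · have h6 : Fintype.card F ≠ 6 := by
      intro h6
      obtain ⟨p, hp⟩ := CharP.exists F
      obtain ⟨n, hpp, hn⟩ := FiniteField.card F p
      rw [h6] at hn
      have h2 : p ∣ 6 := by
        rw [hn]
        exact dvd_pow_self _ n.ne_zero
      have hp2 : p = 2 ∨ p = 3 := by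
        have : p ∣ 2 * 3 := by simpa using h2
        rcases (Nat.Prime.dvd_mul hpp).mp this with h3 | h3
        · exact Or.inl ((Nat.prime_dvd_prime_iff_eq hpp Nat.prime_two).mp h3)
        · exact Or.inr ((Nat.prime_dvd_prime_iff_eq hpp Nat.prime_three).mp h3)
      rcases hp2 with rfl | rfl
      · have : 3 ∣ 2 ^ (n : ℕ) := by
          rw [← hn]
          norm_num
        have := Nat.Prime.dvd_of_dvd_pow Nat.prime_three this
        omega
      · have : 2 ∣ 3 ^ (n : ℕ) := by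
          rw [← hn]
          norm_num
        have := Nat.Prime.dvd_of_dvd_pow Nat.prime_two this
        omega
    have h7 : 7 ≤ Fintype.card F := by omega
    set g : F := (b k * β k) * (b h * β h) with hg
    have hg0 : g ≠ 0 := mul_ne_zero (mul_ne_zero hbk hβk) (mul_ne_zero hbh hβh)
    set A : F[X] := C g * X ^ 2 + C (1 - 2 * g) * X + C g with hA
    set B : F[X] := C (2 * g) * X ^ 2 + C (1 - 4 * g) * X + C (2 * g) with hB
    have hA0 : A ≠ 0 := by
      intro h0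
      have := congrArg (eval 1) h0
      simp [hA] at this
      apply one_ne_zero (α := F)
      linear_combination this
    have hB0 : B ≠ 0 := by
      intro h0
      have := congrArg (eval 1) h0
      simp [hB] at this
      apply one_ne_zero (α := F)
      linear_combination this
    have hP0 : X * (X - C 1) * A * B ≠ 0 :=
      mul_ne_zero (mul_ne_zero (mul_ne_zero X_ne_zero (X_sub_C_ne_zero 1)) hA0) hB0
    have hdeg : (X * (X - C 1) * A * B : F[X]).natDegree ≤ 6 := by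
      rw [hA, hB]
      compute_degree
    obtain ⟨μ, hμ⟩ := exists_eval_ne_zero_of_natDegree_lt_card _ hP0 (by
      rw [Cardinal.mk_fintype]
      exact_mod_cast (by omega : (X * (X - C 1) * A * B : F[X]).natDegree < Fintype.card F))
    simp only [eval_mul, eval_X, eval_sub, eval_C, hA, hB, eval_add, eval_pow] at hμ
    have hμ0 : μ ≠ 0 := fun h0 => hμ (by rw [h0]; ring)
    have hμ1 : μ ≠ 1 := fun h0 => hμ (by rw [h0]; ring)
    have hr := R3 hR k h (Ne.symm hhk) hbk hbh (Units.mk0 μ hμ0) hμ1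
    simp only [Units.val_mk0, Units.val_inv_eq_inv_val] at hr
    rcases hr with hr | hr
    · apply hμ
      have e : g * μ ^ 2 + (1 - 2 * g) * μ + g = 0 := by
        field_simp at hr
        linear_combination -hr
      rw [e]
      ring
    · apply hμ
      have e : 2 * g * μ ^ 2 + (1 - 4 * g) * μ + 2 * g = 0 := by
        field_simp at hr
        linear_combination -hr
      rw [e]
      ring

end Group

end Cfsg.Agent.Lib.SLC2.Refl
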