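/-
A subgroup of `SL_ι(F)` (`|F| ≥ 5`, `|ι| ≥ 13`) containing the monomial matrices of determinant `1` properly
contains `SL_ι(F)`.
-/
import Cfsg.Agent.Lib.SLC2.Refl
set_option autoImplicit false

namespace Cfsg.Agent.Lib.SLC2.MonoB

open Cfsg Cfsg.Geo Cfsg.Agent.Lib.Geo.Basic Cfsg.Agent.Lib.Geo.Centres Cfsg.Agent.Lib.Geo.Parabolic
open Cfsg.Agent.Lib.SLC2.Mono Cfsg.Agent.Lib.SLC2.MonoA Cfsg.Agent.Lib.SLC2.Refl
open scoped MatrixGroups Matrix

variable {ι : Type} [Fintype ι] [DecidableEq ι] {F : Type*} [Field F]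

/-- The complement of a point. -/
abbrev Cmp (l : ι) : Type := {j : ι // j ≠ l}

/-- The determinant of a matrix whose column `l` is a multiple of `e_l`. -/
theorem det_top (l : ι) (z : Matrix ι ι F) (h0 : ∀ a, a ≠ l → z a l = 0) :
    z.det = z l l * (z.submatrix (Subtype.val : (Cmp l) → ι) Subtype.val).det := by
  have h := Matrix.twoBlockTriangular_det z (fun i => i = l) (by
    rintro i hi j rfl
    exact h0 i hi)
  rw [h]
  congr 1
  haveI : Subsingleton {a // a = l} := ⟨fun x y => Subtype.ext (x.2.trans y.2.symm)⟩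
  convert Matrix.det_eq_elem_of_subsingleton (z.toSquareBlockProp fun i => i = l) (⟨l, rfl⟩ : {a // a = l}) using 1
  · congr!
  · rfl

/-- Sum over `ι` split at `l`. -/
theorem sum_split (l : ι) (f : ι → F) : ∑ x, f x = f l + ∑ x : (Cmp l), f x :=
  Fintype.sum_eq_add_sum_subtype_ne f l

/-- Extension of a matrix on the complement of `l`. -/
def extMat (l : ι) (k : Matrix (Cmp l) (Cmp l) F) (c : F) : Matrix ι ι F :=
  fun a b => if ha : a = l then (if b = l then c else 0) else
    if hb : b = l then 0 else k ⟨a, ha⟩ ⟨b, hb⟩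

theorem extMat_ll (l : ι) (k : Matrix (Cmp l) (Cmp l) F) (c : F) : extMat l k c l l = c := by
  simp [extMat]

theorem extMat_l (l : ι) (k : Matrix (Cmp l) (Cmp l) F) (c : F) (b : ι) (hb : b ≠ l) :
    extMat l k c l b = 0 := by
  simp [extMat, hb]

theorem extMat_col (l : ι) (k : Matrix (Cmp l) (Cmp l) F) (c : F) (a : ι) (ha : a ≠ l) :
    extMat l k c a l = 0 := by
  simp [extMat, ha]

theorem extMat_sub (l : ι) (k : Matrix (Cmp l) (Cmp l) F) (c : F) (a b : (Cmp l)) :
    extMat l k c a b = k a b := by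
  simp [extMat, a.2, b.2]

theorem extMat_mul (l : ι) (k k' : Matrix (Cmp l) (Cmp l) F) (c c' : F) :
    extMat l k c * extMat l k' c' = extMat l (k * k') (c * c') := by
  ext a b
  rw [Matrix.mul_apply, sum_split l]
  by_cases ha : a = l
  · subst ha
    by_cases hb : b = a
    · subst hb
      rw [extMat_ll, extMat_ll, extMat_ll, Finset.sum_eq_zero]
      · simp
      · intro x _
        rw [extMat_l _ _ _ _ x.2, zero_mul]
    · rw [extMat_l _ _ _ _ hb, extMat_l _ _ _ _ hb, mul_zero, zero_add, Finset.sum_eq_zero]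
      intro x _
      rw [extMat_l _ _ _ _ x.2, zero_mul]
  · by_cases hb : b = l
    · subst hb
      rw [extMat_col _ _ _ _ ha, extMat_col _ _ _ _ ha, zero_mul, zero_add, Finset.sum_eq_zero]
      intro x _
      rw [extMat_col _ _ _ _ x.2, mul_zero]
    · rw [extMat_col _ _ _ _ ha, zero_mul, zero_add]
      have e := extMat_sub l (k * k') (c * c') ⟨a, ha⟩ ⟨b, hb⟩
      simp only at e
      rw [e, Matrix.mul_apply]
      refine Finset.sum_congr rfl fun x _ => ?_
      have e1 := extMat_sub l k c ⟨a, ha⟩ x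
      have e2 := extMat_sub l k' c' x ⟨b, hb⟩
      simp only at e1 e2
      rw [e1, e2]

theorem extMat_one (l : ι) : extMat l (1 : Matrix (Cmp l) (Cmp l) F) 1 = 1 := by
  ext a b
  by_cases ha : a = l
  · subst ha
    by_cases hb : b = a
    · subst hb
      rw [extMat_ll, Matrix.one_apply_eq]
    · rw [extMat_l _ _ _ _ hb, Matrix.one_apply_ne (Ne.symm hb)]
  · by_cases hb : b = l
    · subst hb
      rw [extMat_col _ _ _ _ ha, Matrix.one_apply_ne ha]
    · have e := extMat_sub l (1 : Matrix (Cmp l) (Cmp l) F) 1 ⟨a, ha⟩ ⟨b, hb⟩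
      simp only at e
      rw [e]
      by_cases hab : a = b
      · subst hab
        simp
      · rw [Matrix.one_apply_ne hab, Matrix.one_apply_ne]
        intro h
        exact hab (congrArg Subtype.val h)

/-- Extension of an invertible matrix on the complement of `l`. -/
def extGL (l : ι) (k : GL (Cmp l) F) (c : Fˣ) : GL ι F where
  val := extMat l (k : Matrix (Cmp l) (Cmp l) F) c
  inv := extMat l ((k⁻¹ : GL (Cmp l) F) : Matrix (Cmp l) (Cmp l) F) ((c⁻¹ : Fˣ) : F)
  val_inv := by
    rw [extMat_mul, ← Units.val_mul, mul_inv_cancel, Units.val_one, Units.mul_inv, extMat_one]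
  inv_val := by
    rw [extMat_mul, ← Units.val_mul, inv_mul_cancel, Units.val_one, Units.inv_mul, extMat_one]

theorem coe_extGL (l : ι) (k : GL (Cmp l) F) (c : Fˣ) :
    ((extGL l k c : GL ι F) : Matrix ι ι F) = extMat l (k : Matrix (Cmp l) (Cmp l) F) c := rfl

theorem det_extMat (l : ι) (k : Matrix (Cmp l) (Cmp l) F) (c : F) :
    (extMat l k c).det = c * k.det := by
  rw [det_top l _ (fun a ha => extMat_col l k c a ha), extMat_ll]
  congr 2
  ext a b
  rw [Matrix.submatrix_apply, extMat_sub]

theorem isMono_extGL (l : ι) (k : GL (Cmp l) F) (c : Fˣ) (hk : IsMono (k : Matrix (Cmp l) (Cmp l) F)) :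
    IsMono ((extGL l k c : GL ι F) : Matrix ι ι F) := by
  intro b
  rw [coe_extGL]
  by_cases hb : b = l
  · subst hb
    refine ⟨b, fun i hi => extMat_col _ _ _ _ hi⟩
  · obtain ⟨d, hd⟩ := hk ⟨b, hb⟩
    refine ⟨d, fun i hi => ?_⟩
    by_cases hil : i = l
    · subst hil
      exact extMat_l _ _ _ _ hb
    · have e := extMat_sub l (k : Matrix (Cmp l) (Cmp l) F) (c : F) ⟨i, hil⟩ ⟨b, hb⟩
      simp only at e
      rw [e]
      apply hd
      intro h
      apply hi
      rw [← h]

/-- The extension with determinant `1`. -/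
noncomputable def extOne (l : ι) (k : GL (Cmp l) F) : GL ι F :=
  extGL l k (Units.mk0 ((k : Matrix (Cmp l) (Cmp l) F).det)⁻¹ (inv_ne_zero (by
    have := (Matrix.isUnit_iff_isUnit_det _).mp k.isUnit
    exact this.ne_zero)))

theorem det_extOne (l : ι) (k : GL (Cmp l) F) :
    ((extOne l k : GL ι F) : Matrix ι ι F).det = 1 := by
  have hk : (k : Matrix (Cmp l) (Cmp l) F).det ≠ 0 := ((Matrix.isUnit_iff_isUnit_det _).mp k.isUnit).ne_zero
  rw [extOne, coe_extGL, det_extMat]
  simp only [Units.val_mk0]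
  field_simp

theorem extOne_col (l : ι) (k : GL (Cmp l) F) (a : ι) (ha : a ≠ l) :
    ((extOne l k : GL ι F) : Matrix ι ι F) a l = 0 := by
  rw [extOne, coe_extGL, extMat_col _ _ _ _ ha]

theorem extOne_sub (l : ι) (k : GL (Cmp l) F) (a b : (Cmp l)) :
    ((extOne l k : GL ι F) : Matrix ι ι F) a b = (k : Matrix (Cmp l) (Cmp l) F) a b := by
  rw [extOne, coe_extGL, extMat_sub]

theorem isMono_extOne (l : ι) (k : GL (Cmp l) F) (hk : IsMono (k : Matrix (Cmp l) (Cmp l) F)) :
    IsMono ((extOne l k : GL ι F) : Matrix ι ι F) := isMono_extGL _ _ _ hk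

/-- The column `l` of the inverse. -/
theorem inv_col_zero (l : ι) (g : GL ι F) (h0 : ∀ a, a ≠ l → (g : Matrix ι ι F) a l = 0) (a : ι) (ha : a ≠ l) :
    ((g⁻¹ : GL ι F) : Matrix ι ι F) a l = 0 := by
  have h1 := gl_inv_mul_apply g a l
  rw [if_neg ha, Finset.sum_eq_single l] at h1
  · have h2 : (g : Matrix ι ι F) l l ≠ 0 := by
      intro h3
      have h4 := gl_inv_mul_apply g l l
      rw [if_pos rfl, Finset.sum_eq_zero] at h4
      · exact zero_ne_one h4
      · intro x _
        by_cases hx : x = l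
        · rw [hx, h3, mul_zero]
        · rw [h0 x hx, mul_zero]
    exact (mul_eq_zero.mp h1).resolve_right h2
  · intro x _ hx
    rw [h0 x hx, mul_zero]
  · simp

/-- The subgroup of `GL` of the complement of `l` induced by the stabiliser of the point `e_l`. -/
def liftSub (M : Subgroup (GL ι F)) (l : ι) : Subgroup (GL (Cmp l) F) where
  carrier := {k | ∃ g ∈ M, (∀ a, a ≠ l → (g : Matrix ι ι F) a l = 0) ∧
    ∀ a b : (Cmp l), (g : Matrix ι ι F) a b = (k : Matrix (Cmp l) (Cmp l) F) a b}
  one_mem' := by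
    refine ⟨1, M.one_mem, fun a ha => ?_, fun a b => ?_⟩
    · simp [Matrix.one_apply, ha]
    · simp [Matrix.one_apply, Subtype.ext_iff]
  mul_mem' := by
    rintro k₁ k₂ ⟨g₁, hg₁, h₁, h₁'⟩ ⟨g₂, hg₂, h₂, h₂'⟩
    refine ⟨g₁ * g₂, M.mul_mem hg₁ hg₂, fun a ha => ?_, fun a b => ?_⟩
    · rw [Units.val_mul, Matrix.mul_apply, sum_split l, h₁ a ha, zero_mul, zero_add, Finset.sum_eq_zero]
      intro x _
      rw [h₂ x x.2, mul_zero]
    · rw [Units.val_mul, Matrix.mul_apply, sum_split l, h₁ a a.2, zero_mul, zero_add, Units.val_mul,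
        Matrix.mul_apply]
      refine Finset.sum_congr rfl fun x _ => ?_
      rw [h₁', h₂']
  inv_mem' := by
    rintro k ⟨g, hg, h, h'⟩
    refine ⟨g⁻¹, M.inv_mem hg, inv_col_zero l g h, fun a b => ?_⟩
    have hK : (Matrix.submatrix ((g⁻¹ : GL ι F) : Matrix ι ι F) (Subtype.val : (Cmp l) → ι) Subtype.val) *
        (k : Matrix (Cmp l) (Cmp l) F) = 1 := by
      ext x y
      rw [Matrix.mul_apply]
      have h1 := gl_inv_mul_apply g x y
      rw [sum_split l, inv_col_zero l g h x x.2, zero_mul, zero_add] at h1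
      have h2 : (if (x : ι) = y then (1 : F) else 0) = (1 : Matrix (Cmp l) (Cmp l) F) x y := by
        simp [Matrix.one_apply, Subtype.ext_iff]
      rw [← h2, ← h1]
      refine Finset.sum_congr rfl fun c _ => ?_
      rw [h', Matrix.submatrix_apply]
    have hK2 : Matrix.submatrix ((g⁻¹ : GL ι F) : Matrix ι ι F) (Subtype.val : (Cmp l) → ι) Subtype.val =
        ((k⁻¹ : GL (Cmp l) F) : Matrix (Cmp l) (Cmp l) F) := by
      calc _ = (Matrix.submatrix ((g⁻¹ : GL ι F) : Matrix ι ι F) (Subtype.val : (Cmp l) → ι) Subtype.val) *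
            ((k : Matrix (Cmp l) (Cmp l) F) * ((k⁻¹ : GL (Cmp l) F) : Matrix (Cmp l) (Cmp l) F)) := by
            rw [← Units.val_mul, mul_inv_cancel, Units.val_one, mul_one]
        _ = _ := by rw [← mul_assoc, hK, one_mul]
    rw [← hK2, Matrix.submatrix_apply]

theorem mem_liftSub_of_isMono (M : Subgroup (GL ι F)) (l : ι)
    (hH : ∀ g : GL ι F, (g : Matrix ι ι F).det = 1 → IsMono (g : Matrix ι ι F) → g ∈ M)
    (k : GL (Cmp l) F) (hk : IsMono (k : Matrix (Cmp l) (Cmp l) F)) : k ∈ liftSub M l :=
  ⟨extOne l k, hH _ (det_extOne l k) (isMono_extOne l k hk), extOne_col l k, extOne_sub l k⟩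

/-- The restriction of an element fixing the point `e_l`. -/
def subGL (l : ι) (g : GL ι F) (h : ∀ a, a ≠ l → (g : Matrix ι ι F) a l = 0) : GL (Cmp l) F where
  val := Matrix.submatrix (g : Matrix ι ι F) Subtype.val Subtype.val
  inv := Matrix.submatrix ((g⁻¹ : GL ι F) : Matrix ι ι F) Subtype.val Subtype.val
  val_inv := by
    ext x y
    rw [Matrix.mul_apply]
    have h1 := gl_mul_apply g x y
    rw [sum_split l, h x x.2, zero_mul, zero_add] at h1
    have h2 : (if (x : ι) = y then (1 : F) else 0) = (1 : Matrix (Cmp l) (Cmp l) F) x y := by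
      simp [Matrix.one_apply, Subtype.ext_iff]
    rw [← h2, ← h1]
    rfl
  inv_val := by
    ext x y
    rw [Matrix.mul_apply]
    have h1 := gl_inv_mul_apply g x y
    rw [sum_split l, inv_col_zero l g h x x.2, zero_mul, zero_add] at h1
    have h2 : (if (x : ι) = y then (1 : F) else 0) = (1 : Matrix (Cmp l) (Cmp l) F) x y := by
      simp [Matrix.one_apply, Subtype.ext_iff]
    rw [← h2, ← h1]
    rfl

theorem subGL_mem (M : Subgroup (GL ι F)) (l : ι) (g : GL ι F) (hg : g ∈ M)
    (h : ∀ a, a ≠ l → (g : Matrix ι ι F) a l = 0) : subGL l g h ∈ liftSub M l :=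
  ⟨g, hg, h, fun _ _ => rfl⟩

/-- An element acting trivially on the quotient by `e_l` is a transvection. -/
theorem eq_transv_of_top (l : ι) (z : GL ι F) (hdet : (z : Matrix ι ι F).det = 1)
    (h0 : ∀ a, a ≠ l → (z : Matrix ι ι F) a l = 0)
    (h1 : ∀ a b : (Cmp l), (z : Matrix ι ι F) a b = if (a : ι) = b then 1 else 0) :
    ∃ (ρ : ι → F) (hρ : ρ ⬝ᵥ (Pi.single l 1 : ι → F) = 0), z = transv (Pi.single l 1) ρ hρ ∧
      ρ l = 0 ∧ ∀ b, b ≠ l → ρ b = (z : Matrix ι ι F) l b := by
  have hsub : Matrix.submatrix (z : Matrix ι ι F) (Subtype.val : (Cmp l) → ι) (Subtype.val : (Cmp l) → ι) =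
      (1 : Matrix (Cmp l) (Cmp l) F) := by
    ext a b
    rw [Matrix.submatrix_apply, h1]
    simp [Matrix.one_apply, Subtype.ext_iff]
  have hll : (z : Matrix ι ι F) l l = 1 := by
    have := det_top l (z : Matrix ι ι F) h0
    rw [hdet, hsub, Matrix.det_one, mul_one] at this
    exact this.symm
  refine ⟨fun b => if b = l then 0 else (z : Matrix ι ι F) l b, by simp [dotProduct_single], ?_, by simp, ?_⟩
  · ext1
    ext a b
    rw [coe_transv, transvMat, Matrix.add_apply, Matrix.vecMulVec_apply]
    by_cases ha : a = l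
    · subst ha
      by_cases hb : b = a
      · subst hb
        simp [hll]
      · simp [hb, Matrix.one_apply, Ne.symm hb]
    · rw [Pi.single_eq_of_ne ha, zero_mul, add_zero]
      by_cases hb : b = l
      · subst hb
        rw [h0 a ha, Matrix.one_apply_ne ha]
      · have := h1 ⟨a, ha⟩ ⟨b, hb⟩
        simp only at this
        rw [this, Matrix.one_apply]
  · intro b hb
    simp [hb]

theorem isMono_mul (g h : Matrix ι ι F) (hg : IsMono g) (hh : IsMono h) : IsMono (g * h) := by
  intro a
  obtain ⟨b, hb⟩ := hh a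
  obtain ⟨d, hd⟩ := hg b
  refine ⟨d, fun i hi => ?_⟩
  rw [Matrix.mul_apply, Finset.sum_eq_single b]
  · rw [hd i hi, zero_mul]
  · intro x _ hx
    rw [hb x hx, mul_zero]
  · simp

theorem transv_inv_eq' (u φ : ι → F) (h : φ ⬝ᵥ u = 0) :
    (transv u φ h)⁻¹ = transv u (-φ) (by simpa using h) := by
  rw [transv_inv_eq]
  ext1
  rw [coe_transv, coe_transv, transvMat, transvMat, Matrix.neg_vecMulVec, Matrix.vecMulVec_neg]

theorem dg_mulVec (t : ι → Fˣ) (v : ι → F) (i : ι) :
    (((dg t : GL ι F) : Matrix ι ι F) *ᵥ v) i = (t i : F) * v i := by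
  rw [coe_dg, Matrix.mulVec_diagonal]

theorem vecMul_dg_inv (t : ι → Fˣ) (φ : ι → F) (i : ι) :
    (φ ᵥ* (((dg t)⁻¹ : GL ι F) : Matrix ι ι F)) i = φ i * (((t i)⁻¹ : Fˣ) : F) := by
  change (φ ᵥ* (Matrix.diagonal fun a => (((t a)⁻¹ : Fˣ) : F))) i = _
  rw [Matrix.vecMul_diagonal]

theorem dg_apply (t : ι → Fˣ) (i j : ι) (h : i ≠ j) : ((dg t : GL ι F) : Matrix ι ι F) i j = 0 := by
  rw [coe_dg, Matrix.diagonal_apply_ne _ h]

theorem conj_dg_apply (t : ι → Fˣ) (g : GL ι F) (u v : ι) :
    ((dg t * g * (dg t)⁻¹ : GL ι F) : Matrix ι ι F) u v =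
      (t u : F) * (g : Matrix ι ι F) u v * (((t v)⁻¹ : Fˣ) : F) := by
  rw [Units.val_mul, Units.val_mul, coe_dg]
  change (Matrix.diagonal (fun a => (t a : F)) * (g : Matrix ι ι F) *
    Matrix.diagonal fun a => (((t a)⁻¹ : Fˣ) : F)) u v = _
  rw [Matrix.mul_diagonal, Matrix.diagonal_mul]

/-- A signed transposition of determinant one. -/
def sw (p q d : ι) : GL ι F := pm (Equiv.swap p q) * dg (dup d (-1))

theorem det_sw (p q d : ι) (hpq : p ≠ q) : ((sw p q d : GL ι F) : Matrix ι ι F).det = 1 := by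
  rw [sw, Units.val_mul, Matrix.det_mul, det_pm, det_dg, Equiv.Perm.sign_swap hpq]
  have : ∏ a, ((dup d (-1 : Fˣ) a : Fˣ) : F) = -1 := by
    rw [Finset.prod_eq_single d]
    · simp [dup]
    · intro b _ hb
      simp [dup, hb]
    · simp
  rw [this]
  simp

theorem isMono_sw (p q d : ι) : IsMono ((sw p q d : GL ι F) : Matrix ι ι F) := by
  rw [sw, Units.val_mul]
  exact isMono_mul _ _ (isMono_pm _) (isMono_dg _)

theorem sw_mulVec (p q d : ι) (v : ι → F) (hv : v d = 0) :
    ((sw p q d : GL ι F) : Matrix ι ι F) *ᵥ v = v ∘ Equiv.swap p q := by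
  rw [sw, Units.val_mul, ← Matrix.mulVec_mulVec, pm_mulVec]
  congr 1
  ext i
  rw [dg_dup_mulVec]
  by_cases hi : i = d
  · rw [hi, hv, mul_zero]
  · rw [if_neg hi, one_mul]

theorem vecMul_sw_inv (p q d : ι) (φ : ι → F) (hφ : φ d = 0) :
    φ ᵥ* (((sw p q d)⁻¹ : GL ι F) : Matrix ι ι F) = φ ∘ Equiv.swap p q := by
  rw [sw, mul_inv_rev, Units.val_mul, ← Matrix.vecMul_vecMul, vecMul_pm_inv]
  congr 1
  ext i
  rw [vecMul_dg_dup_inv]
  by_cases hi : i = d
  · rw [hi, hφ, zero_mul]
  · rw [if_neg hi, mul_one]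

theorem single_comp_swap (p q : ι) : (Pi.single p 1 : ι → F) ∘ Equiv.swap p q = Pi.single q 1 := by
  ext i
  simp only [Function.comp, Pi.single_apply]
  by_cases h1 : i = q
  · simp [h1]
  · by_cases h2 : i = p
    · subst h2
      simp [h1, Ne.symm h1]
    · rw [Equiv.swap_apply_of_ne_of_ne h2 h1]
      simp [h1, h2]

/-- A subgroup for which all coordinate vectors are centres contains `SL`. -/
theorem specialLinear_le_of_single_centres (M : Subgroup (GL ι F)) (h : ∀ x : ι, IsCentre M (Pi.single x 1)) :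
    specialLinear ι F ≤ M := by
  apply specialLinear_le_of_transv
  intro u φ hφ
  have : u ∈ centreSubmodule M := by
    rw [pi_eq_sum_univ' u]
    refine Submodule.sum_mem _ fun x _ => ?_
    refine Submodule.smul_mem _ _ ?_
    exact h x
  exact this φ hφ

section Main

variable (M : Subgroup (GL ι F))
  (hH : ∀ g : GL ι F, (g : Matrix ι ι F).det = 1 → IsMono (g : Matrix ι ι F) → g ∈ M)
include hH

theorem dg_mem (t : ι → Fˣ) (ht : ∏ j, (t j : F) = 1) : dg t ∈ M :=
  hH _ (by rw [det_dg, ht]) (isMono_dg t)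

theorem dg_dd_mem (a b : ι) (hab : a ≠ b) (κ : Fˣ) : dg (dd a b κ) ∈ M :=
  dg_mem M hH _ (prod_dd a b hab κ)

/-- Scaling an elementary transvection. -/
theorem elem_scale [Fintype F] (hι : 3 ≤ Fintype.card ι) (a b : ι) (hab : a ≠ b) (ν : F) (hν : ν ≠ 0)
    (hT : transv (ν • (Pi.single a 1 : ι → F)) (Pi.single b 1)
      (by rw [dotProduct_smul, single_one_dotProduct, Pi.single_eq_of_ne (Ne.symm hab), smul_zero]) ∈ M) (c : F) :
    transv (c • (Pi.single a 1 : ι → F)) (Pi.single b 1)
      (by rw [dotProduct_smul, single_one_dotProduct, Pi.single_eq_of_ne (Ne.symm hab), smul_zero]) ∈ M := by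
  by_cases hc : c = 0
  · subst hc
    have : transv ((0 : F) • (Pi.single a 1 : ι → F)) (Pi.single b 1)
      (by rw [dotProduct_smul, single_one_dotProduct, Pi.single_eq_of_ne (Ne.symm hab), smul_zero]) = 1 := by
      ext1
      rw [coe_transv, transvMat]
      simp
    rw [this]
    exact M.one_mem
  · obtain ⟨d, hd⟩ := exists_notMem_finset ({a, b} : Finset ι) (by
      have : ({a, b} : Finset ι).card ≤ 2 := Finset.card_le_two
      omega)
    simp only [Finset.mem_insert, Finset.mem_singleton, not_or] at hd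
    set κ : Fˣ := Units.mk0 (c / ν) (div_ne_zero hc hν) with hκ
    have h1 := M.mul_mem (M.mul_mem (dg_dd_mem M hH a d (Ne.symm hd.1) κ) hT)
      (M.inv_mem (dg_dd_mem M hH a d (Ne.symm hd.1) κ))
    rw [conj_transv'] at h1
    refine (by
      convert h1 using 2
      · ext i
        rw [dg_mulVec]
        simp only [Pi.smul_apply, smul_eq_mul, Pi.single_apply]
        by_cases hi : i = a
        · subst hi
          rw [dd_left]
          simp only [hκ, Units.val_mk0, if_true]
          field_simp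
        · simp [hi]
      · ext i
        rw [vecMul_dg_inv]
        simp only [Pi.single_apply]
        by_cases hi : i = b
        · subst hi
          rw [dd_other a d κ i (Ne.symm hab) (Ne.symm hd.2)]
          simp
        · simp [hi])

/-- From an elementary transvection to `SL`. -/
theorem specialLinear_le_of_elem' [Fintype F] (hι : 4 ≤ Fintype.card ι) (a b : ι) (hab : a ≠ b) (ν : F) (hν : ν ≠ 0)
    (hT : transv (ν • (Pi.single a 1 : ι → F)) (Pi.single b 1)
      (by rw [dotProduct_smul, single_one_dotProduct, Pi.single_eq_of_ne (Ne.symm hab), smul_zero]) ∈ M) :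
    specialLinear ι F ≤ M := by
  have hs := elem_scale M hH (by omega) a b hab ν hν hT
  -- all axes
  have hx : ∀ (x : ι) (hxa : x ≠ a) (c : F), transv (c • (Pi.single a 1 : ι → F)) (Pi.single x 1)
      (by rw [dotProduct_smul, single_one_dotProduct, Pi.single_eq_of_ne hxa, smul_zero]) ∈ M := by
    intro x hxa c
    by_cases hxb : x = b
    · subst hxb
      exact hs c
    · obtain ⟨d, hd⟩ := exists_notMem_finset ({a, b, x} : Finset ι) (by
        have : ({a, b, x} : Finset ι).card ≤ 3 := Finset.card_le_three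
        omega)
      simp only [Finset.mem_insert, Finset.mem_singleton, not_or] at hd
      have hsw : sw b x d ∈ M := hH _ (det_sw b x d (Ne.symm hxb)) (isMono_sw b x d)
      have h1 := M.mul_mem (M.mul_mem hsw (hs c)) (M.inv_mem hsw)
      rw [conj_transv'] at h1
      refine (by
        convert h1 using 2
        · rw [sw_mulVec _ _ _ _ (by simp [Pi.single_apply, hd.1])]
          ext i
          simp only [Function.comp, Pi.smul_apply, smul_eq_mul, Pi.single_apply]
          by_cases h2 : i = a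
          · subst h2
            rw [Equiv.swap_apply_of_ne_of_ne hab (Ne.symm hxa)]
          · have : Equiv.swap b x i ≠ a := by
              intro h3
              have : i = Equiv.swap b x a := by
                rw [← h3]
                simp
              rw [Equiv.swap_apply_of_ne_of_ne hab (Ne.symm hxa)] at this
              exact h2 this
            simp [h2, this]
        · rw [vecMul_sw_inv _ _ _ _ (by simp [Pi.single_apply, hd.2.1]), single_comp_swap])
  -- `e_a` is a centre
  have hcentre : IsCentre M (Pi.single a 1 : ι → F) := by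
    intro φ hφ
    have hφa : φ a = 0 := by simpa [dotProduct_single] using hφ
    have key : ∀ S : Finset ι, a ∉ S → ∀ (ψ : ι → F) (hψ : ψ ⬝ᵥ (Pi.single a 1 : ι → F) = 0),
        ψ = ∑ x ∈ S, φ x • (Pi.single x 1 : ι → F) → transv (Pi.single a 1) ψ hψ ∈ M := by
      intro S
      induction S using Finset.induction_on with
      | empty =>
        intro _ ψ hψ he
        have : transv (Pi.single a 1 : ι → F) ψ hψ = 1 := by
          ext1
          rw [coe_transv, transvMat, he]
          simp
        rw [this]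
        exact M.one_mem
      | insert y S hy ih =>
        intro haS ψ hψ he
        rw [Finset.mem_insert, not_or] at haS
        have hyd : (φ y • (Pi.single y 1 : ι → F)) ⬝ᵥ (Pi.single a 1 : ι → F) = 0 := by
          rw [smul_dotProduct, single_one_dotProduct, Pi.single_eq_of_ne (Ne.symm haS.1), smul_zero]
        have hrd : (∑ x ∈ S, φ x • (Pi.single x 1 : ι → F)) ⬝ᵥ (Pi.single a 1 : ι → F) = 0 := by
          rw [Finset.sum_insert hy] at he
          rw [he, add_dotProduct, hyd, zero_add] at hψ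
          exact hψ
        have h1 := ih haS.2 _ hrd rfl
        have hey : ψ = φ y • (Pi.single y 1 : ι → F) + ∑ x ∈ S, φ x • (Pi.single x 1 : ι → F) := by
          rw [he, Finset.sum_insert hy]
        have h2 := hx y (Ne.symm haS.1) (φ y)
        have h3 : transv ((φ y) • (Pi.single a 1 : ι → F)) (Pi.single y 1)
          (by rw [dotProduct_smul, single_one_dotProduct, Pi.single_eq_of_ne (Ne.symm haS.1), smul_zero]) =
            transv (Pi.single a 1 : ι → F) (φ y • (Pi.single y 1 : ι → F)) hyd := by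
          rw [transv_smul_left_eq _ _ _ _ hyd]
        rw [h3] at h2
        have h4 := M.mul_mem h2 h1
        rw [transv_mul_same_left] at h4
        rw [transv_congr rfl hey hψ (by rw [← hey]; exact hψ)]
        exact h4
    refine key (Finset.univ.erase a) (by simp) φ hφ ?_
    conv_lhs => rw [pi_eq_sum_univ' φ]
    rw [← Finset.sum_erase Finset.univ (by rw [hφa, zero_smul])]
  refine specialLinear_le_of_single_centres M fun x => ?_
  by_cases hxa : x = a
  · rw [hxa]
    exact hcentre
  · obtain ⟨d, hd⟩ := exists_notMem_finset ({a, x} : Finset ι) (by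
      have : ({a, x} : Finset ι).card ≤ 2 := Finset.card_le_two
      omega)
    simp only [Finset.mem_insert, Finset.mem_singleton, not_or] at hd
    have hsw : sw a x d ∈ M := hH _ (det_sw a x d (Ne.symm hxa)) (isMono_sw a x d)
    have := IsCentre.mulVec hcentre hsw
    rwa [sw_mulVec _ _ _ _ (by simp [Pi.single_apply, hd.1]), single_comp_swap] at this

/-- A transvection with centre `e_l` gives an elementary transvection. -/
theorem elem_of_centre_l [Fintype F] (hq : 5 ≤ Fintype.card F) (hι : 4 ≤ Fintype.card ι) (l : ι) (ρ : ι → F)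
    (hρ : ρ ⬝ᵥ (Pi.single l 1 : ι → F) = 0) (hρ0 : ρ ≠ 0) (hT : transv (Pi.single l 1) ρ hρ ∈ M) :
    ∃ (a b : ι) (hab : a ≠ b) (ν : F), ν ≠ 0 ∧
      transv (ν • (Pi.single a 1 : ι → F)) (Pi.single b 1)
        (by rw [dotProduct_smul, single_one_dotProduct, Pi.single_eq_of_ne (Ne.symm hab), smul_zero]) ∈ M := by
  classical
  have hρl : ρ l = 0 := by simpa [dotProduct_single] using hρ
  obtain ⟨x, hx⟩ : ∃ x, ρ x ≠ 0 := by
    by_contra hcon
    push Not at hcon
    exact hρ0 (funext hcon)
  have hxl : x ≠ l := by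
    rintro rfl
    exact hx hρl
  obtain ⟨κ, hκ⟩ : ∃ κ : Fˣ, (κ : F) ≠ 1 := by
    obtain ⟨y, hy⟩ := exists_notMem_finset ({0, 1} : Finset F) (by
      have : ({0, 1} : Finset F).card ≤ 2 := Finset.card_le_two
      omega)
    simp only [Finset.mem_insert, Finset.mem_singleton, not_or] at hy
    exact ⟨Units.mk0 y hy.1, hy.2⟩
  have hκ' : ((κ⁻¹ : Fˣ) : F) - 1 ≠ 0 := by
    intro h0
    apply hκ
    have h1 : ((κ⁻¹ : Fˣ) : F) * (κ : F) = 1 := by simp
    rw [show ((κ⁻¹ : Fˣ) : F) = 1 by linear_combination h0, one_mul] at h1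
    exact h1
  -- a general step
  have step : ∀ (ρ' : ι → F) (hρ' : ρ' ⬝ᵥ (Pi.single l 1 : ι → F) = 0), transv (Pi.single l 1) ρ' hρ' ∈ M →
      ∀ d, d ≠ l → d ≠ x →
      ∃ (h3 : (fun i => if i = x then (((κ⁻¹ : Fˣ) : F) - 1) * ρ' x else if i = d then ((κ : F) - 1) * ρ' d else 0) ⬝ᵥ
        (Pi.single l 1 : ι → F) = 0),
        transv (Pi.single l 1) (fun i => if i = x then (((κ⁻¹ : Fˣ) : F) - 1) * ρ' x else if i = d then
          ((κ : F) - 1) * ρ' d else 0) h3 ∈ M := by
    intro ρ' hρ' hT' d hdl hdx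
    have h3 : (fun i => if i = x then (((κ⁻¹ : Fˣ) : F) - 1) * ρ' x else if i = d then ((κ : F) - 1) * ρ' d else 0) ⬝ᵥ
        (Pi.single l 1 : ι → F) = 0 := by
      rw [dotProduct_single]
      simp [Ne.symm hxl, Ne.symm hdl]
    refine ⟨h3, ?_⟩
    have hs := dg_dd_mem M hH x d (Ne.symm hdx) κ
    have h1 := M.mul_mem (M.mul_mem hs hT') (M.inv_mem hs)
    rw [conj_transv'] at h1
    have hu : ((dg (dd x d κ) : GL ι F) : Matrix ι ι F) *ᵥ (Pi.single l 1 : ι → F) = Pi.single l 1 := by
      ext i
      rw [dg_mulVec]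
      by_cases hi : i = l
      · subst hi
        rw [dd_other x d κ i (Ne.symm hxl) (Ne.symm hdl)]
        simp
      · simp [hi]
    have hd1 : (ρ' ᵥ* (((dg (dd x d κ))⁻¹ : GL ι F) : Matrix ι ι F)) ⬝ᵥ (Pi.single l 1 : ι → F) = 0 := by
      have := dotProduct_conj_eq (dg (dd x d κ)) (Pi.single l 1 : ι → F) ρ'
      rw [hu, hρ'] at this
      exact this
    rw [transv_congr hu rfl _ hd1] at h1
    have h2 := M.mul_mem h1 (M.inv_mem hT')
    rw [transv_inv_eq', transv_mul_same_left] at h2
    refine (by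
      convert h2 using 2
      ext i
      simp only [Pi.add_apply, Pi.neg_apply, vecMul_dg_inv]
      by_cases hix : i = x
      · subst hix
        rw [dd_left, if_pos rfl]
        ring
      · rw [if_neg hix]
        by_cases hid : i = d
        · subst hid
          rw [dd_right x i (Ne.symm hdx), if_pos rfl, inv_inv]
          ring
        · rw [if_neg hid, dd_other x d κ i hix hid]
          simp)
  obtain ⟨d, hd⟩ := exists_notMem_finset ({l, x} : Finset ι) (by
    have : ({l, x} : Finset ι).card ≤ 2 := Finset.card_le_two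
    omega)
  simp only [Finset.mem_insert, Finset.mem_singleton, not_or] at hd
  obtain ⟨d', hd'⟩ := exists_notMem_finset ({l, x, d} : Finset ι) (by
    have : ({l, x, d} : Finset ι).card ≤ 3 := Finset.card_le_three
    omega)
  simp only [Finset.mem_insert, Finset.mem_singleton, not_or] at hd'
  obtain ⟨h3, h4⟩ := step ρ hρ hT d hd.1 hd.2
  obtain ⟨h5, h6⟩ := step _ h3 h4 d' hd'.1 hd'.2.1
  have hc : ((κ⁻¹ : Fˣ) : F) - 1 ≠ 0 := hκ'
  set c : F := (((κ⁻¹ : Fˣ) : F) - 1) * ((((κ⁻¹ : Fˣ) : F) - 1) * ρ x) with hcdef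
  have hc0 : c ≠ 0 := mul_ne_zero hc (mul_ne_zero hc hx)
  refine ⟨l, x, Ne.symm hxl, c, hc0, ?_⟩
  have h7 : transv (Pi.single l 1 : ι → F) (c • (Pi.single x 1 : ι → F)) (by
      rw [smul_dotProduct, single_one_dotProduct, Pi.single_eq_of_ne hxl, smul_zero]) ∈ M := by
    refine (by
      convert h6 using 2
      ext i
      simp only [Pi.smul_apply, smul_eq_mul, Pi.single_apply]
      by_cases hix : i = x
      · subst hix
        simp [hcdef]
      · rw [if_neg hix, if_neg hix, mul_zero]
        by_cases hid : i = d'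
        · subst hid
          rw [if_pos rfl, if_neg hix, if_neg hd'.2.2, mul_zero]
        · rw [if_neg hid])
  rwa [← transv_smul_left_eq] at h7

end Main

section Final

variable [Fintype F]

/-- The main theorem: the monomial case. -/
theorem mono_main (hq : 5 ≤ Fintype.card F) (hι : 13 ≤ Fintype.card ι) (M : Subgroup (GL ι F))
    (hH : ∀ g : GL ι F, (g : Matrix ι ι F).det = 1 → IsMono (g : Matrix ι ι F) → g ∈ M)
    (hM : ∀ g ∈ M, (g : Matrix ι ι F).det = 1) (x : GL ι F) (hx : x ∈ M) (hnx : ¬ IsMono (x : Matrix ι ι F)) :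
    specialLinear ι F ≤ M := by
  classical
  have hT : ∀ t : ι → Fˣ, ∏ j, (t j : F) = 1 → dg t ∈ M := dg_mem M hH
  obtain ⟨g, hg, hng, a, b, hb⟩ := exists_coord_col M hT hq hι x hx hnx
  -- normalise
  obtain ⟨y, hy, hny, hya⟩ : ∃ y ∈ M, ¬ IsMono (y : Matrix ι ι F) ∧ ∀ i, i ≠ a → (y : Matrix ι ι F) i a = 0 := by
    by_cases hab : b = a
    · subst hab
      exact ⟨g, hg, hng, hb⟩
    · obtain ⟨d, hd⟩ := exists_notMem_finset ({a, b} : Finset ι) (by
        have : ({a, b} : Finset ι).card ≤ 2 := Finset.card_le_two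
        omega)
      simp only [Finset.mem_insert, Finset.mem_singleton, not_or] at hd
      have hsw : sw a b d ∈ M := hH _ (det_sw a b d (Ne.symm hab)) (isMono_sw a b d)
      refine ⟨sw a b d * g, M.mul_mem hsw hg, ?_, fun i hi => ?_⟩
      · intro hm
        apply hng
        have h1 := isMono_mul _ _ (isMono_inv _ (isMono_sw (F := F) a b d)) hm
        rw [← Units.val_mul] at h1
        simpa using h1
      · have h1 : col (g : Matrix ι ι F) a d = 0 := hb d hd.2
        have h2 := congrFun (sw_mulVec a b d (col (g : Matrix ι ι F) a) h1) i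
        rw [mulVec_col, ← Units.val_mul] at h2
        simp only [col, Function.comp] at h2
        rw [h2]
        apply hb
        intro h3
        apply hi
        have h4 : Equiv.swap a b (Equiv.swap a b i) = Equiv.swap a b b := by rw [h3]
        simpa using h4
  have hcard : 3 ≤ Fintype.card (Cmp a) := by
    have : Fintype.card (Cmp a) = Fintype.card ι - 1 := by
      have := Set.card_ne_eq a
      rw [← this]
      exact Fintype.card_congr (Equiv.subtypeEquivRight fun x => by simp)
    omega
  have hmono : ∀ k : GL (Cmp a) F, IsMono (k : Matrix (Cmp a) (Cmp a) F) → k ∈ liftSub M a :=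
    mem_liftSub_of_isMono M a hH
  have hfin : ∀ (ρ : ι → F) (hρ : ρ ⬝ᵥ (Pi.single a 1 : ι → F) = 0), ρ ≠ 0 → transv (Pi.single a 1) ρ hρ ∈ M →
      specialLinear ι F ≤ M := by
    intro ρ hρ hρ0 hT'
    obtain ⟨a', b', hab', ν, hν, h⟩ := elem_of_centre_l M hH hq (by omega) a ρ hρ hρ0 hT'
    exact specialLinear_le_of_elem' M hH (by omega) a' b' hab' ν hν h
  by_cases hYm : IsMono ((subGL a y hya : GL (Cmp a) F) : Matrix (Cmp a) (Cmp a) F)
  · -- the quotient action is monomial
    set Y : GL (Cmp a) F := subGL a y hya with hY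
    have hYi : IsMono ((Y⁻¹ : GL (Cmp a) F) : Matrix (Cmp a) (Cmp a) F) := isMono_inv _ hYm
    have hh' : extOne a Y⁻¹ ∈ M := hH _ (det_extOne a _) (isMono_extOne a _ hYi)
    have hz : y * extOne a Y⁻¹ ∈ M := M.mul_mem hy hh'
    obtain ⟨ρ, hρ, hzeq, -, -⟩ := eq_transv_of_top a (y * extOne a Y⁻¹) (hM _ hz) (by
      intro i hi
      rw [Units.val_mul, Matrix.mul_apply, sum_split a, hya i hi, zero_mul, zero_add, Finset.sum_eq_zero]
      intro c _
      rw [extOne_col a _ c c.2, mul_zero]) (by
      intro u v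
      rw [Units.val_mul, Matrix.mul_apply, sum_split a, hya u u.2, zero_mul, zero_add]
      have h1 := congrFun (congrFun (show (Y : Matrix (Cmp a) (Cmp a) F) * ((Y⁻¹ : GL (Cmp a) F) : Matrix (Cmp a) (Cmp a) F) = 1 by
        rw [← Units.val_mul, mul_inv_cancel, Units.val_one]) u) v
      rw [Matrix.mul_apply] at h1
      have h2 : (1 : Matrix (Cmp a) (Cmp a) F) u v = if (u : ι) = v then 1 else 0 := by
        simp [Matrix.one_apply, Subtype.ext_iff]
      rw [← h2, ← h1]
      refine Finset.sum_congr rfl fun c _ => ?_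
      rw [extOne_sub]
      rfl)
    by_cases hρ0 : ρ = 0
    · exfalso
      have h1 : y * extOne a Y⁻¹ = 1 := by
        rw [hzeq]
        ext1
        rw [coe_transv, transvMat, hρ0]
        simp
      have h2 : y = (extOne a Y⁻¹)⁻¹ := eq_inv_of_mul_eq_one_left h1
      apply hny
      rw [h2]
      exact isMono_inv _ (isMono_extOne a _ hYi)
    · exact hfin ρ hρ hρ0 (by rw [← hzeq]; exact hz)
  · obtain ⟨a', b', hab', ν, hν, hdot, hT'⟩ := hasElem_of_not_mono hq hcard hmono _
      (subGL_mem M a y hy hya) hYm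
    obtain ⟨g', hg', hg'a, hg'sub⟩ := hT'
    set T' : GL (Cmp a) F := transv (ν • (Pi.single a' 1 : Cmp a → F)) (Pi.single b' 1) hdot with hT'def
    have hTentry : ∀ u v : Cmp a, (T' : Matrix (Cmp a) (Cmp a) F) u v =
        (if u = v then 1 else 0) + (if u = a' then ν else 0) * (if v = b' then 1 else 0) := by
      intro u v
      rw [hT'def, coe_transv, transvMat, Matrix.add_apply, Matrix.one_apply, Matrix.vecMulVec_apply]
      simp [Pi.single_apply]
    obtain ⟨d, hd⟩ := exists_notMem_finset ({a, (a' : ι), (b' : ι)} : Finset ι) (by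
      have : ({a, (a' : ι), (b' : ι)} : Finset ι).card ≤ 3 := Finset.card_le_three
      omega)
    simp only [Finset.mem_insert, Finset.mem_singleton, not_or] at hd
    obtain ⟨σ, hσ⟩ : ∃ σ : Fˣ, (σ : F) ^ 2 ≠ 1 := by
      obtain ⟨w, hw⟩ := exists_notMem_finset ({0, 1, -1} : Finset F) (by
        have : ({0, 1, -1} : Finset F).card ≤ 3 := Finset.card_le_three
        omega)
      simp only [Finset.mem_insert, Finset.mem_singleton, not_or] at hw
      refine ⟨Units.mk0 w hw.1, ?_⟩
      simp only [Units.val_mk0]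
      intro h
      have : (w - 1) * (w + 1) = 0 := by linear_combination h
      rcases mul_eq_zero.mp this with h1 | h1
      · exact hw.2.1 (by linear_combination h1)
      · exact hw.2.2 (by linear_combination h1)
    have hσ1 : (σ : F) ≠ 1 := by
      intro h
      apply hσ
      rw [h]
      simp
    set t : ι → Fˣ := dd a d σ with ht
    have hda : a ≠ d := Ne.symm hd.1
    have htM : dg t ∈ M := dg_dd_mem M hH a d hda σ
    set g₂ : GL ι F := dg t * g' * (dg t)⁻¹ with hg₂
    have hg₂M : g₂ ∈ M := M.mul_mem (M.mul_mem htM hg') (M.inv_mem htM)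
    have hg₂e : ∀ u v, (g₂ : Matrix ι ι F) u v = (t u : F) * (g' : Matrix ι ι F) u v * (((t v)⁻¹ : Fˣ) : F) :=
      conj_dg_apply t g'
    have hg₂a : ∀ i, i ≠ a → (g₂ : Matrix ι ι F) i a = 0 := by
      intro i hi
      rw [hg₂e, hg'a i hi]
      simp
    -- the two agree on the complement
    have hagree : ∀ u v : Cmp a, (g₂ : Matrix ι ι F) u v = (g' : Matrix ι ι F) u v := by
      intro u v
      rw [hg₂e, hg'sub, hTentry]
      by_cases huv : u = v
      · subst huv
        by_cases hu1 : u = a'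
        · by_cases hu2 : u = b'
          · exact absurd (hu1.symm.trans hu2) hab'
          · simp only [if_true, if_neg hu2, mul_zero, add_zero]
            simp
        · simp only [if_true, if_neg hu1, zero_mul, add_zero, mul_one]
          simp
      · by_cases hab : u = a' ∧ v = b'
        · obtain ⟨rfl, rfl⟩ := hab
          simp only [if_neg huv, if_true, zero_add, mul_one]
          have h1 : t u = 1 := dd_other a d σ u u.2 (fun h => hd.2.1 (h ▸ rfl))
          have h2 : t v = 1 := dd_other a d σ v v.2 (fun h => hd.2.2 (h ▸ rfl))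
          rw [h1, h2]
          simp
        · have : (if u = a' then ν else 0) * (if v = b' then (1 : F) else 0) = 0 := by
            by_cases h1 : u = a'
            · have h2 : ¬ v = b' := fun h => hab ⟨h1, h⟩
              simp [h2]
            · simp [h1]
          rw [if_neg huv, this]
          simp
    have hg'inv : ∀ c, c ≠ a → ((g'⁻¹ : GL ι F) : Matrix ι ι F) c a = 0 := inv_col_zero a g' hg'a
    set w : GL ι F := g₂ * g'⁻¹ with hw
    have hwM : w ∈ M := M.mul_mem hg₂M (M.inv_mem hg')
    obtain ⟨ρ, hρ, hweq, -, hρv⟩ := eq_transv_of_top a w (hM _ hwM) (by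
      intro i hi
      rw [hw, Units.val_mul, Matrix.mul_apply, sum_split a, hg₂a i hi, zero_mul, zero_add, Finset.sum_eq_zero]
      intro c _
      rw [hg'inv c c.2, mul_zero]) (by
      intro u v
      rw [hw, Units.val_mul, Matrix.mul_apply, sum_split a, hg₂a u u.2, zero_mul, zero_add]
      have h1 := gl_mul_apply g' u v
      rw [sum_split a, hg'a u u.2, zero_mul, zero_add] at h1
      rw [← h1]
      refine Finset.sum_congr rfl fun c _ => ?_
      rw [hagree])
    by_cases hρ0 : ρ = 0
    · -- `g'` commutes with the torus element, so it is the elementary transvection itself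
      have hw1 : w = 1 := by
        rw [hweq]
        ext1
        rw [coe_transv, transvMat, hρ0]
        simp
      have hgg : g₂ = g' := by
        have : g₂ * g'⁻¹ = 1 := hw1
        exact mul_inv_eq_one.mp this
      have hrow : ∀ v, v ≠ a → (g' : Matrix ι ι F) a v = 0 := by
        intro v hv
        have h1 := hg₂e a v
        rw [hgg, show t a = σ from dd_left a d σ] at h1
        by_cases hvd : v = d
        · subst hvd
          rw [show t v = σ⁻¹ from dd_right a v hda σ, inv_inv] at h1
          have h2 : ((σ : F) ^ 2 - 1) * (g' : Matrix ι ι F) a v = 0 := by linear_combination -h1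
          exact (mul_eq_zero.mp h2).resolve_left (sub_ne_zero.mpr hσ)
        · rw [show t v = 1 from dd_other a d σ v hv hvd] at h1
          simp only [inv_one, Units.val_one, mul_one] at h1
          have h2 : ((σ : F) - 1) * (g' : Matrix ι ι F) a v = 0 := by linear_combination -h1
          exact (mul_eq_zero.mp h2).resolve_left (sub_ne_zero.mpr hσ1)
      have hsubT : Matrix.submatrix (g' : Matrix ι ι F) (Subtype.val : Cmp a → ι) (Subtype.val : Cmp a → ι) =
          (T' : Matrix (Cmp a) (Cmp a) F) := by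
        ext u v
        rw [Matrix.submatrix_apply, hg'sub]
      have hgaa : (g' : Matrix ι ι F) a a = 1 := by
        have h1 := det_top a (g' : Matrix ι ι F) hg'a
        rw [hM _ hg', hsubT, hT'def, coe_transv, det_transvMat _ _ hdot, mul_one] at h1
        exact h1.symm
      have hdot' : (Pi.single (b' : ι) 1 : ι → F) ⬝ᵥ (ν • (Pi.single (a' : ι) 1 : ι → F)) = 0 := by
        rw [dotProduct_smul, single_one_dotProduct, Pi.single_eq_of_ne (fun h => hab' (Subtype.ext h.symm)), smul_zero]
      have hgT : g' = transv (ν • (Pi.single (a' : ι) 1 : ι → F)) (Pi.single (b' : ι) 1) hdot' := by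
        ext1
        ext i j
        rw [coe_transv, transvMat, Matrix.add_apply, Matrix.vecMulVec_apply]
        simp only [Pi.smul_apply, smul_eq_mul, Pi.single_apply, Matrix.one_apply]
        by_cases hi : i = a
        · subst hi
          have h1 : i ≠ (a' : ι) := Ne.symm a'.2
          by_cases hj : j = i
          · subst hj
            simp [hgaa, h1]
          · rw [hrow j hj]
            simp [h1, Ne.symm hj]
        · by_cases hj : j = a
          · subst hj
            have h1 : j ≠ (b' : ι) := Ne.symm b'.2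
            rw [hg'a i hi]
            simp [hi, h1]
          · have e1 := hg'sub ⟨i, hi⟩ ⟨j, hj⟩
            simp only at e1
            rw [e1, hTentry]
            simp [Subtype.ext_iff]
      have hab2 : (a' : ι) ≠ b' := fun h => hab' (Subtype.ext h)
      refine specialLinear_le_of_elem' M hH (by omega) a' b' hab2 ν hν ?_
      rw [← hgT]
      exact hg'
    · exact hfin ρ hρ hρ0 (by rw [← hweq]; exact hwM)

end Final

end Cfsg.Agent.Lib.SLC2.MonoB
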