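/-
Coordinate block decompositions of `F^ι`: block subspaces, pure transvections, block swaps, and
the reduction of subgroups containing the block stabiliser to "root elements".
-/
import Cfsg.Agent.Lib.SLC2.MonoB
import Cfsg.Agent.Lib.Geo.SpDecomp
set_option autoImplicit false

namespace Cfsg.Agent.Lib.SLC2.BlockA

open Cfsg Cfsg.Geo Cfsg.Agent.Lib.Geo.Basic Cfsg.Agent.Lib.Geo.Centres Cfsg.Agent.Lib.Geo.Parabolic
open Cfsg.Agent.Lib.Geo.SpDecomp
open Cfsg.Agent.Lib.SLC2.Mono Cfsg.Agent.Lib.SLC2.MonoA Cfsg.Agent.Lib.SLC2.Refl Cfsg.Agent.Lib.SLC2.MonoB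
open scoped MatrixGroups Matrix

variable {ι : Type} [Fintype ι] [DecidableEq ι] (F : Type*) [Field F] {t m : ℕ}

/-- The coordinate block `i`. -/
def blk (e : ι ≃ Fin t × Fin m) (i : Fin t) : Submodule F (ι → F) where
  carrier := {v | ∀ a, (e a).1 ≠ i → v a = 0}
  add_mem' := by
    intro v w hv hw a ha
    simp [hv a ha, hw a ha]
  zero_mem' := by
    intro a _
    rfl
  smul_mem' := by
    intro c v hv a ha
    simp [hv a ha]

variable {F}

theorem mem_blk {e : ι ≃ Fin t × Fin m} {i : Fin t} {v : ι → F} :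
    v ∈ blk F e i ↔ ∀ a, (e a).1 ≠ i → v a = 0 := Iff.rfl

theorem single_mem_blk {e : ι ≃ Fin t × Fin m} {i : Fin t} {x : ι} (hx : (e x).1 = i) (c : F) :
    (Pi.single x c : ι → F) ∈ blk F e i := by
  intro a ha
  apply Pi.single_eq_of_ne
  rintro rfl
  exact ha hx

theorem dot_eq_zero {e : ι ≃ Fin t × Fin m} {i j : Fin t} (hij : i ≠ j) {φ x : ι → F}
    (hφ : φ ∈ blk F e i) (hx : x ∈ blk F e j) : φ ⬝ᵥ x = 0 := by
  refine Finset.sum_eq_zero fun a _ => ?_
  by_cases ha : (e a).1 = i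
  · rw [hx a (by rw [ha]; exact hij), mul_zero]
  · rw [hφ a ha, zero_mul]

/-- The coordinates of a block. -/
def blkEquiv (e : ι ≃ Fin t × Fin m) (i : Fin t) : blk F e i ≃ₗ[F] (Fin m → F) where
  toFun v := fun j => (v : ι → F) (e.symm (i, j))
  map_add' := by
    intro v w
    rfl
  map_smul' := by
    intro c v
    rfl
  invFun f := ⟨fun a => if (e a).1 = i then f (e a).2 else 0, by
    intro a ha
    simp [ha]⟩
  left_inv := by
    intro v
    ext a
    by_cases ha : (e a).1 = i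
    · simp only [ha, if_true]
      have h1 : e.symm (i, (e a).2) = a := by
        apply e.injective
        rw [e.apply_symm_apply, ← ha]
      rw [h1]
    · simp only [ha, if_false]
      exact (v.2 a ha).symm
  right_inv := by
    intro f
    ext j
    simp

theorem finrank_blk (e : ι ≃ Fin t × Fin m) (i : Fin t) : Module.finrank F (blk F e i) = m := by
  rw [LinearEquiv.finrank_eq (blkEquiv e i)]
  simp

/-- The restriction to a block. -/
def res (e : ι ≃ Fin t × Fin m) (i : Fin t) (v : ι → F) : ι → F := fun a => if (e a).1 = i then v a else 0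

theorem res_mem (e : ι ≃ Fin t × Fin m) (i : Fin t) (v : ι → F) : res e i v ∈ blk F e i := by
  intro a ha
  simp [res, ha]

theorem res_of (e : ι ≃ Fin t × Fin m) {i : Fin t} (v : ι → F) {a : ι} (ha : (e a).1 = i) : res e i v a = v a := by
  simp [res, ha]

theorem res_not (e : ι ≃ Fin t × Fin m) {i : Fin t} (v : ι → F) {a : ι} (ha : (e a).1 ≠ i) : res e i v a = 0 := by
  simp [res, ha]

theorem res_dot (e : ι ≃ Fin t × Fin m) (i : Fin t) (φ v : ι → F) : res e i φ ⬝ᵥ v = φ ⬝ᵥ res e i v := by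
  refine Finset.sum_congr rfl fun a _ => ?_
  by_cases ha : (e a).1 = i
  · rw [res_of e _ ha, res_of e _ ha]
  · rw [res_not e _ ha, res_not e _ ha, zero_mul, mul_zero]

theorem dot_res_of_mem (e : ι ≃ Fin t × Fin m) {i : Fin t} {φ : ι → F} (hφ : φ ∈ blk F e i) (v : ι → F) :
    φ ⬝ᵥ res e i v = φ ⬝ᵥ v := by
  refine Finset.sum_congr rfl fun a _ => ?_
  by_cases ha : (e a).1 = i
  · rw [res_of e _ ha]
  · rw [hφ a ha, zero_mul, zero_mul]

theorem res_eq_zero_iff (e : ι ≃ Fin t × Fin m) (i : Fin t) (v : ι → F) :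
    res e i v = 0 ↔ ∀ a, (e a).1 = i → v a = 0 := by
  constructor
  · intro h a ha
    rw [← res_of e v ha, h]
    rfl
  · intro h
    ext a
    by_cases ha : (e a).1 = i
    · rw [res_of e _ ha, h a ha]
      rfl
    · rw [res_not e _ ha]
      rfl

theorem exists_other (e : ι ≃ Fin t × Fin m) (hm : 2 ≤ m) (x : ι) : ∃ x', (e x').1 = (e x).1 ∧ x' ≠ x := by
  haveI : Fact (1 < m) := ⟨hm⟩
  obtain ⟨j, hj⟩ : ∃ j : Fin m, j ≠ (e x).2 := by
    by_contra hcon
    push Not at hcon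
    have h0 := hcon ⟨0, by omega⟩
    have h1 := hcon ⟨1, by omega⟩
    rw [← h1] at h0
    simp at h0
  refine ⟨e.symm ((e x).1, j), by simp, ?_⟩
  intro h
  apply hj
  have := congrArg (fun z => (e z).2) h
  simpa using this

theorem exists_two_other (e : ι ≃ Fin t × Fin m) (hm : 3 ≤ m) (x : ι) :
    ∃ y₁ y₂, (e y₁).1 = (e x).1 ∧ (e y₂).1 = (e x).1 ∧ y₁ ≠ x ∧ y₂ ≠ x ∧ y₁ ≠ y₂ := by
  obtain ⟨y₁, h1, h1'⟩ := exists_other e (by omega) x
  obtain ⟨j, hj⟩ : ∃ j : Fin m, j ≠ (e x).2 ∧ j ≠ (e y₁).2 := by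
    obtain ⟨j, hj⟩ := exists_notMem_finset ({(e x).2, (e y₁).2} : Finset (Fin m)) (by
      have : ({(e x).2, (e y₁).2} : Finset (Fin m)).card ≤ 2 := Finset.card_le_two
      rw [Fintype.card_fin]
      omega)
    simp only [Finset.mem_insert, Finset.mem_singleton, not_or] at hj
    exact ⟨j, hj⟩
  refine ⟨y₁, e.symm ((e x).1, j), h1, by simp, h1', ?_, ?_⟩
  · intro h
    apply hj.1
    have := congrArg (fun z => (e z).2) h
    simpa using this
  · intro h
    apply hj.2
    have := congrArg (fun z => (e z).2) h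
    simpa using this.symm

theorem exists_fiber (e : ι ≃ Fin t × Fin m) (hm : 0 < m) (i : Fin t) : ∃ x, (e x).1 = i :=
  ⟨e.symm (i, ⟨0, hm⟩), by simp⟩

/-- Swapping two blocks: a permutation of coordinates. -/
def bp (e : ι ≃ Fin t × Fin m) (a a' : Fin t) : Equiv.Perm ι :=
  e.trans (((Equiv.swap a a').prodCongr (Equiv.refl _)).trans e.symm)

theorem e_bp (e : ι ≃ Fin t × Fin m) (a a' : Fin t) (x : ι) :
    e (bp e a a' x) = (Equiv.swap a a' (e x).1, (e x).2) := by
  simp only [bp, Equiv.trans_apply, Equiv.apply_symm_apply]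
  rfl

theorem bp_bp (e : ι ≃ Fin t × Fin m) (a a' : Fin t) (x : ι) : bp e a a' (bp e a a' x) = x := by
  apply e.injective
  rw [e_bp, e_bp]
  simp

theorem bp_of_ne (e : ι ≃ Fin t × Fin m) (a a' : Fin t) (x : ι) (h1 : (e x).1 ≠ a) (h2 : (e x).1 ≠ a') :
    bp e a a' x = x := by
  apply e.injective
  rw [e_bp, Equiv.swap_apply_of_ne_of_ne h1 h2]

theorem single_comp_bp (e : ι ≃ Fin t × Fin m) (a a' : Fin t) (p : ι) (c : F) :
    (Pi.single p c : ι → F) ∘ bp e a a' = Pi.single (bp e a a' p) c := by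
  ext i
  simp only [Function.comp, Pi.single_apply]
  by_cases h : i = bp e a a' p
  · subst h
    simp [bp_bp]
  · have : bp e a a' i ≠ p := by
      rintro rfl
      apply h
      rw [bp_bp]
    simp [h, this]

variable (F) in
/-- The sign of a block swap, as a unit of `F`. -/
noncomputable def bsgn (e : ι ≃ Fin t × Fin m) (a a' : Fin t) : Fˣ :=
  Units.map (Int.castRingHom F).toMonoidHom (Equiv.Perm.sign (bp e a a'))

/-- A block swap of determinant one. -/
noncomputable def bsw (e : ι ≃ Fin t × Fin m) (a a' : Fin t) (d : ι) : GL ι F :=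
  pm (bp e a a') * dg (dup d (bsgn F e a a'))

theorem det_bsw (e : ι ≃ Fin t × Fin m) (a a' : Fin t) (d : ι) :
    ((bsw e a a' d : GL ι F) : Matrix ι ι F).det = 1 := by
  rw [bsw, Units.val_mul, Matrix.det_mul, det_pm, det_dg]
  have : ∏ x, ((dup d (bsgn F e a a') x : Fˣ) : F) = ((bsgn F e a a' : Fˣ) : F) := by
    rw [Finset.prod_eq_single d]
    · simp [dup]
    · intro b _ hb
      simp [dup, hb]
    · simp
  rw [this]
  have h2 : ((bsgn F e a a' : Fˣ) : F) = (((Equiv.Perm.sign (bp e a a') : ℤˣ) : ℤ) : F) := rfl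
  rw [h2, ← Int.cast_mul, ← Units.val_mul, Int.units_mul_self]
  simp

theorem bsw_mulVec (e : ι ≃ Fin t × Fin m) (a a' : Fin t) (d : ι) (v : ι → F) (hv : v d = 0) :
    ((bsw e a a' d : GL ι F) : Matrix ι ι F) *ᵥ v = v ∘ bp e a a' := by
  rw [bsw, Units.val_mul, ← Matrix.mulVec_mulVec, pm_mulVec]
  congr 1
  ext i
  rw [dg_dup_mulVec]
  by_cases hi : i = d
  · rw [hi, hv, mul_zero]
  · rw [if_neg hi, one_mul]

theorem vecMul_bsw_inv (e : ι ≃ Fin t × Fin m) (a a' : Fin t) (d : ι) (φ : ι → F) (hφ : φ d = 0) :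
    φ ᵥ* (((bsw e a a' d)⁻¹ : GL ι F) : Matrix ι ι F) = φ ∘ bp e a a' := by
  rw [bsw, mul_inv_rev, Units.val_mul, ← Matrix.vecMul_vecMul, vecMul_pm_inv]
  congr 1
  ext i
  rw [vecMul_dg_dup_inv]
  by_cases hi : i = d
  · rw [hi, hφ, zero_mul]
  · rw [if_neg hi, mul_one]

theorem bsw_mem_stab (e : ι ≃ Fin t × Fin m) (a a' : Fin t) (d : ι) :
    bsw e a a' d ∈ decompositionStabilizer (blk F e) := by
  refine mem_decompositionStabilizer_of_forall (finrank_blk e) (Equiv.swap a a') _ ?_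
  intro i v hv p hp
  rw [bsw, Units.val_mul, ← Matrix.mulVec_mulVec, pm_mulVec]
  simp only [Function.comp]
  rw [dg_dup_mulVec, hv, mul_zero]
  rw [e_bp]
  intro h
  apply hp
  simp only at h
  rw [← h]
  simp

theorem transv_mem_stab (e : ι ≃ Fin t × Fin m) {i : Fin t} {u φ : ι → F} (hu : u ∈ blk F e i) (hφ : φ ∈ blk F e i)
    (h : φ ⬝ᵥ u = 0) : transv u φ h ∈ decompositionStabilizer (blk F e) := by
  refine mem_decompositionStabilizer_of_forall (finrank_blk e) 1 _ ?_
  intro j x hx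
  rw [transv_mulVec]
  simp only [Equiv.Perm.coe_one, id]
  by_cases hj : j = i
  · subst hj
    exact (blk F e j).add_mem hx ((blk F e j).smul_mem _ hu)
  · rw [dot_eq_zero (Ne.symm hj) hφ hx, zero_smul, add_zero]
    exact hx

theorem rg_mem_stab (e : ι ≃ Fin t × Fin m) {i : Fin t} {u φ : ι → F} (hu : u ∈ blk F e i) (hφ : φ ∈ blk F e i)
    (h : φ ⬝ᵥ u = 1) (μ : Fˣ) : rg u φ h μ ∈ decompositionStabilizer (blk F e) := by
  refine mem_decompositionStabilizer_of_forall (finrank_blk e) 1 _ ?_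
  intro j x hx
  rw [rg_mulVec]
  simp only [Equiv.Perm.coe_one, id]
  by_cases hj : j = i
  · subst hj
    exact (blk F e j).add_mem hx ((blk F e j).smul_mem _ hu)
  · rw [dot_eq_zero (Ne.symm hj) hφ hx, mul_zero, zero_smul, add_zero]
    exact hx

theorem det_rg (b β : ι → F) (h : β ⬝ᵥ b = 1) (μ : Fˣ) : ((rg b β h μ : GL ι F) : Matrix ι ι F).det = μ := by
  rw [coe_rg]
  have h1 : ((μ : F) - 1) • Matrix.vecMulVec b β =
      Matrix.replicateCol Unit (((μ : F) - 1) • b) * Matrix.replicateRow Unit β := by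
    ext i j
    simp [Matrix.mul_apply, Matrix.vecMulVec_apply, mul_assoc]
  rw [h1, Matrix.det_one_add_replicateCol_mul_replicateRow, dotProduct_smul, smul_eq_mul]
  rw [dotProduct_comm] at h
  rw [dotProduct_comm, h]
  ring

/-- A vector moved by the inverse of a transvection, on the right. -/
theorem vecMul_transv_inv (u φ : ι → F) (h : φ ⬝ᵥ u = 0) (χ : ι → F) :
    χ ᵥ* (((transv u φ h)⁻¹ : GL ι F) : Matrix ι ι F) = χ - (χ ⬝ᵥ u) • φ := by
  rw [coe_transv_inv, transvMat, Matrix.vecMul_add, Matrix.vecMul_one, Matrix.vecMul_vecMulVec, dotProduct_neg]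
  ext i
  simp [sub_eq_add_neg]

end Cfsg.Agent.Lib.SLC2.BlockA
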