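/-
A subgroup containing the block stabiliser and a "root element" contains `SL`.
-/
import Cfsg.Agent.Lib.SLC2.BlockA
set_option autoImplicit false

namespace Cfsg.Agent.Lib.SLC2.BlockB

open Cfsg Cfsg.Geo Cfsg.Agent.Lib.Geo.Basic Cfsg.Agent.Lib.Geo.Centres Cfsg.Agent.Lib.Geo.Parabolic
open Cfsg.Agent.Lib.SLC2.Mono Cfsg.Agent.Lib.SLC2.MonoA Cfsg.Agent.Lib.SLC2.Refl Cfsg.Agent.Lib.SLC2.MonoB
open Cfsg.Agent.Lib.SLC2.BlockA
open scoped MatrixGroups Matrix

variable {ι : Type} [Fintype ι] [DecidableEq ι] {F : Type*} [Field F] {t m : ℕ}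

/-- The transvection `1 + v ⊗ φ` exists and is in `M`. -/
def Tm (M : Subgroup (GL ι F)) (v φ : ι → F) : Prop := ∃ h : φ ⬝ᵥ v = 0, transv v φ h ∈ M

section Tm

variable {M : Subgroup (GL ι F)}

theorem Tm.dot {v φ : ι → F} (h : Tm M v φ) : φ ⬝ᵥ v = 0 := h.1

theorem Tm.conj {v φ : ι → F} (h : Tm M v φ) {g : GL ι F} (hg : g ∈ M) :
    Tm M ((g : Matrix ι ι F) *ᵥ v) (φ ᵥ* ((g⁻¹ : GL ι F) : Matrix ι ι F)) := by
  obtain ⟨h0, h1⟩ := h
  refine ⟨by rw [dotProduct_conj_eq, h0], ?_⟩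
  rw [← conj_transv' g v φ h0]
  exact M.mul_mem (M.mul_mem hg h1) (M.inv_mem hg)

theorem Tm.add {v φ ψ : ι → F} (h : Tm M v φ) (h' : Tm M v ψ) : Tm M v (φ + ψ) := by
  obtain ⟨h0, h1⟩ := h
  obtain ⟨h0', h1'⟩ := h'
  refine ⟨by rw [add_dotProduct, h0, h0', add_zero], ?_⟩
  rw [← transv_mul_same_left _ _ _ h0 h0']
  exact M.mul_mem h1 h1'

theorem Tm.neg {v φ : ι → F} (h : Tm M v φ) : Tm M v (-φ) := by
  obtain ⟨h0, h1⟩ := h
  refine ⟨by simpa using h0, ?_⟩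
  rw [← transv_inv_eq' v φ h0]
  exact M.inv_mem h1

theorem Tm.sub {v φ ψ : ι → F} (h : Tm M v φ) (h' : Tm M v ψ) : Tm M v (φ - ψ) := by
  rw [sub_eq_add_neg]
  exact h.add h'.neg

theorem Tm.smul_left {v φ : ι → F} {c : F} (h : Tm M (c • v) φ) : Tm M v (c • φ) := by
  obtain ⟨h0, h1⟩ := h
  have h' : (c • φ) ⬝ᵥ v = 0 := by
    rw [smul_dotProduct]
    rwa [dotProduct_smul] at h0
  refine ⟨h', ?_⟩
  rw [← transv_smul_left_eq c v φ h0 h']
  exact h1

theorem Tm.congr {v v' φ φ' : ι → F} (h : Tm M v φ) (hv : v = v') (hφ : φ = φ') : Tm M v' φ' := by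
  subst hv
  subst hφ
  exact h

theorem tm_zero_right (v : ι → F) : Tm M v 0 := by
  refine ⟨by simp, ?_⟩
  have : transv v (0 : ι → F) (by simp) = 1 := by
    ext1
    rw [coe_transv, transvMat]
    simp
  rw [this]
  exact M.one_mem

end Tm

variable {e : ι ≃ Fin t × Fin m} (M : Subgroup (GL ι F))
  (hH : decompositionStabilizer (blk F e) ⊓ specialLinear ι F ≤ M)

include hH

theorem pure_mem {i : Fin t} {u φ : ι → F} (hu : u ∈ blk F e i) (hφ : φ ∈ blk F e i) (h : φ ⬝ᵥ u = 0) :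
    Tm M u φ :=
  ⟨h, hH ⟨transv_mem_stab e hu hφ h, transv_mem_specialLinear u φ h⟩⟩

theorem bsw_mem (a a' : Fin t) (d : ι) : bsw e a a' d ∈ M :=
  hH ⟨bsw_mem_stab e a a' d, (mem_specialLinear_iff _).mpr (det_bsw e a a' d)⟩

theorem axis_red {w ψ u χ : ι → F} (hT : Tm M w ψ) {i : Fin t} (hu : u ∈ blk F e i) (hχ : χ ∈ blk F e i)
    (hχu : χ ⬝ᵥ u = 0) (hχw : χ ⬝ᵥ w = 0) : Tm M ((ψ ⬝ᵥ u) • w) χ := by
  obtain ⟨h0, h1⟩ := hT
  refine ⟨by rw [dotProduct_smul, hχw, smul_zero], ?_⟩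
  rw [← commutator_transv w ψ u χ h0 hχu hχw]
  obtain ⟨_, hE⟩ := pure_mem M hH hu hχ hχu
  exact M.mul_mem (M.mul_mem (M.mul_mem h1 hE) (M.inv_mem h1)) (M.inv_mem hE)

theorem centre_red {w ψ u θ : ι → F} (hT : Tm M w ψ) {i : Fin t} (hu : u ∈ blk F e i) (hθ : θ ∈ blk F e i)
    (hθu : θ ⬝ᵥ u = 0) (hψu : ψ ⬝ᵥ u = 0) : Tm M ((θ ⬝ᵥ w) • u) ψ := by
  obtain ⟨h0, h1⟩ := hT
  refine ⟨by rw [dotProduct_smul, hψu, smul_zero], ?_⟩
  rw [← commutator_transv u θ w ψ hθu h0 hψu]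
  obtain ⟨_, hE⟩ := pure_mem M hH hu hθ hθu
  exact M.mul_mem (M.mul_mem (M.mul_mem hE h1) (M.inv_mem hE)) (M.inv_mem h1)

theorem root_step {z : ι} {χ : ι → F} (hT : Tm M (Pi.single z 1) χ) {a : Fin t} {y x : ι} (hy : (e y).1 = a)
    (hχy : χ y ≠ 0) (hx : (e x).1 = a) (hxy : x ≠ y) (hxz : x ≠ z) (c : F) :
    Tm M (Pi.single z 1) (Pi.single x c) := by
  have hd : (Pi.single x 1 : ι → F) ⬝ᵥ ((-c / χ y) • (Pi.single y 1 : ι → F)) = 0 := by
    rw [dotProduct_smul, single_one_dotProduct, Pi.single_eq_of_ne hxy, smul_zero]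
  obtain ⟨_, hE⟩ := pure_mem M hH ((blk F e a).smul_mem (-c / χ y) (single_mem_blk hy 1)) (single_mem_blk hx 1) hd
  have h1 : Tm M (Pi.single z 1) _ := (hT.conj hE).congr (by
    rw [transv_mulVec, single_one_dotProduct, Pi.single_eq_of_ne hxz, zero_smul, add_zero]) rfl
  have h2 := h1.sub hT
  refine h2.congr rfl ?_
  · rw [vecMul_transv_inv, dotProduct_smul, dotProduct_single_one]
    ext i
    simp only [Pi.sub_apply, Pi.smul_apply, smul_eq_mul, Pi.single_apply]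
    by_cases hi : i = x
    · subst hi
      simp only [if_true]
      field_simp
      ring
    · simp [hi]

theorem root_all (hm : 2 ≤ m) {z : ι} {χ : ι → F} (hT : Tm M (Pi.single z 1) χ) {a : Fin t} (hza : (e z).1 ≠ a)
    {y : ι} (hy : (e y).1 = a) (hχy : χ y ≠ 0) (p : ι) (hp : (e p).1 = a) (c : F) :
    Tm M (Pi.single z 1) (Pi.single p c) := by
  obtain ⟨x, hx, hxy⟩ := exists_other e hm y
  rw [hy] at hx
  have hxz : ∀ {q : ι}, (e q).1 = a → q ≠ z := by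
    rintro q hq rfl
    exact hza hq
  by_cases hpx : p = x
  · subst hpx
    exact root_step M hH hT hy hχy hx hxy (hxz hx) c
  · have h1 := root_step M hH hT hy hχy hx hxy (hxz hx) 1
    exact root_step M hH h1 hx (by simp) hp hpx (hxz hp) c

theorem root_other (hm : 2 ≤ m) {z : ι} {χ : ι → F} (hT : Tm M (Pi.single z 1) χ) {a : Fin t} (hza : (e z).1 ≠ a)
    {y : ι} (hy : (e y).1 = a) (hχy : χ y ≠ 0) (p : ι) (hp : (e p).1 ≠ (e z).1) (c : F) :
    Tm M (Pi.single z 1) (Pi.single p c) := by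
  by_cases hpa : (e p).1 = a
  · exact root_all M hH hm hT hza hy hχy p hpa c
  set a' := (e p).1 with ha'
  have hq : (e (bp e a a' p)).1 = a := by
    rw [e_bp]
    simp [← ha']
  obtain ⟨d, hd, hdq⟩ := exists_other e hm (bp e a a' p)
  rw [hq] at hd
  have h1 := root_all M hH hm hT hza hy hχy (bp e a a' p) hq c
  have hg := bsw_mem M hH a a' d
  have h2 := h1.conj hg
  refine h2.congr ?_ ?_
  · rw [bsw_mulVec _ _ _ _ _ (by
      apply Pi.single_eq_of_ne
      rintro rfl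
      exact hza hd), single_comp_bp, bp_of_ne e a a' z hza (Ne.symm hp)]
  · rw [vecMul_bsw_inv _ _ _ _ _ (Pi.single_eq_of_ne hdq.symm.symm _), single_comp_bp, bp_bp]

omit hH in
theorem centre_of_all (z : ι) (h : ∀ p, p ≠ z → ∀ c : F, Tm M (Pi.single z 1) (Pi.single p c)) :
    IsCentre M (Pi.single z 1 : ι → F) := by
  intro φ hφ
  have hφz : φ z = 0 := by simpa [dotProduct_single] using hφ
  have key : ∀ S : Finset ι, z ∉ S → Tm M (Pi.single z 1) (∑ x ∈ S, Pi.single x (φ x)) := by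
    intro S
    induction S using Finset.induction_on with
    | empty =>
      intro _
      simpa using tm_zero_right (M := M) (Pi.single z 1 : ι → F)
    | insert y S hy ih =>
      intro hzS
      rw [Finset.mem_insert, not_or] at hzS
      rw [Finset.sum_insert hy]
      exact (h y (Ne.symm hzS.1) _).add (ih hzS.2)
  have h1 := key (Finset.univ.erase z) (by simp)
  have h2 : ∑ x ∈ Finset.univ.erase z, Pi.single x (φ x) = φ := by
    conv_rhs => rw [← Finset.univ_sum_single φ]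
    rw [← Finset.sum_erase Finset.univ (a := z) (by rw [hφz, Pi.single_zero])]
  rw [h2] at h1
  exact h1.2

theorem sl_of_root (hm : 2 ≤ m) {z : ι} {χ : ι → F} (hT : Tm M (Pi.single z 1) χ) {a : Fin t} (hza : (e z).1 ≠ a)
    {y : ι} (hy : (e y).1 = a) (hχy : χ y ≠ 0) : specialLinear ι F ≤ M := by
  have hz : IsCentre M (Pi.single z 1 : ι → F) := by
    refine centre_of_all M z fun p hpz c => ?_
    by_cases hp : (e p).1 = (e z).1
    · refine pure_mem M hH (single_mem_blk rfl 1) (single_mem_blk hp c) ?_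
      rw [dotProduct_single_one, Pi.single_eq_of_ne (Ne.symm hpz)]
    · exact root_other M hH hm hT hza hy hχy p hp c
  have hsame : ∀ x, (e x).1 = (e z).1 → IsCentre M (Pi.single x 1 : ι → F) := by
    intro x hx
    by_cases hxz : x = z
    · rw [hxz]
      exact hz
    have hd : (Pi.single z 1 : ι → F) ⬝ᵥ (Pi.single x 1 : ι → F) = 0 := by
      rw [single_one_dotProduct, Pi.single_eq_of_ne (Ne.symm hxz)]
    obtain ⟨_, hE⟩ := pure_mem M hH (single_mem_blk hx 1) (single_mem_blk (rfl : (e z).1 = (e z).1) 1) hd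
    have h1 := IsCentre.mulVec hz hE
    rw [transv_mulVec, single_one_dotProduct, Pi.single_eq_same, one_smul] at h1
    have h2 := IsCentre_add h1 (IsCentre.smul hz (-1))
    convert h2 using 1
    ext i
    simp
  refine specialLinear_le_of_single_centres M fun p => ?_
  by_cases hp : (e p).1 = (e z).1
  · exact hsame p hp
  have hx : (e (bp e (e z).1 (e p).1 p)).1 = (e z).1 := by
    rw [e_bp]
    simp
  obtain ⟨d, hd, hdx⟩ := exists_other e hm (bp e (e z).1 (e p).1 p)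
  have h1 := IsCentre.mulVec (hsame _ hx) (bsw_mem M hH (e z).1 (e p).1 d)
  rwa [bsw_mulVec _ _ _ _ _ (Pi.single_eq_of_ne hdx _), single_comp_bp, bp_bp] at h1

/-- Lemma B. -/
theorem sl_of_axis_root (hm : 2 ≤ m) {w χ : ι → F} (hT : Tm M w χ) {a : Fin t} (hχ : χ ∈ blk F e a) (hχ0 : χ ≠ 0)
    (hw : w ∉ blk F e a) : specialLinear ι F ≤ M := by
  obtain ⟨y', hy', hwy⟩ : ∃ y', (e y').1 ≠ a ∧ w y' ≠ 0 := by
    by_contra hcon
    push Not at hcon
    exact hw hcon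
  obtain ⟨z, hz, hzy⟩ := exists_other e hm y'
  obtain ⟨y, hy⟩ : ∃ y, χ y ≠ 0 := by
    by_contra hcon
    push Not at hcon
    exact hχ0 (funext hcon)
  have hya : (e y).1 = a := by
    by_contra h
    exact hy (hχ y h)
  have hza : (e z).1 ≠ a := by rwa [hz]
  have h1 := centre_red M hH hT (single_mem_blk hz 1) (single_mem_blk (rfl : (e y').1 = (e y').1) 1)
    (by rw [single_one_dotProduct, Pi.single_eq_of_ne (Ne.symm hzy)]) (by
      rw [dotProduct_single_one]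
      exact hχ z hza)
  have h2 := h1.smul_left
  rw [single_one_dotProduct] at h2
  exact sl_of_root M hH hm h2 hza hya (by
    simp only [Pi.smul_apply, smul_eq_mul]
    exact mul_ne_zero hwy hy)

theorem sl_of_axis (hm : 2 ≤ m) {w ψ u χ : ι → F} (hT : Tm M w ψ) {a : Fin t} (hu : u ∈ blk F e a) (hχ : χ ∈ blk F e a)
    (hχ0 : χ ≠ 0) (hχu : χ ⬝ᵥ u = 0) (hχw : χ ⬝ᵥ w = 0) (hψu : ψ ⬝ᵥ u ≠ 0) (hw : w ∉ blk F e a) :
    specialLinear ι F ≤ M := by
  have h1 := axis_red M hH hT hu hχ hχu hχw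
  refine sl_of_axis_root M hH hm h1 hχ hχ0 fun h2 => hw ?_
  have h3 := (blk F e a).smul_mem (ψ ⬝ᵥ u)⁻¹ h2
  rwa [smul_smul, inv_mul_cancel₀ hψu, one_smul] at h3

end Cfsg.Agent.Lib.SLC2.BlockB
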