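/-
A subgroup containing the block stabiliser and a transvection which is not "pure" contains `SL`.
-/
import Cfsg.Agent.Lib.SLC2.BlockB
set_option autoImplicit false

namespace Cfsg.Agent.Lib.SLC2.BlockC

open Cfsg Cfsg.Geo Cfsg.Agent.Lib.Geo.Basic Cfsg.Agent.Lib.Geo.Centres Cfsg.Agent.Lib.Geo.Parabolic
open Cfsg.Agent.Lib.Geo.SpDecomp
open Cfsg.Agent.Lib.SLC2.Mono Cfsg.Agent.Lib.SLC2.MonoA Cfsg.Agent.Lib.SLC2.Refl Cfsg.Agent.Lib.SLC2.MonoB
open Cfsg.Agent.Lib.SLC2.BlockA Cfsg.Agent.Lib.SLC2.BlockB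
open scoped MatrixGroups Matrix

variable {ι : Type} [Fintype ι] [DecidableEq ι] {F : Type*} [Field F] {t m : ℕ}

theorem chi_dot (x x' : ι) (hx : x ≠ x') (w : ι → F) :
    (Pi.single x (w x') - Pi.single x' (w x) : ι → F) ⬝ᵥ w = 0 := by
  rw [sub_dotProduct, single_dotProduct, single_dotProduct]
  ring

variable {e : ι ≃ Fin t × Fin m} (M : Subgroup (GL ι F))
  (hH : decompositionStabilizer (blk F e) ⊓ specialLinear ι F ≤ M)

include hH

/-- The case `3 ≤ m`. -/
theorem sl_of_three (hm : 3 ≤ m) {w ψ : ι → F} (hT : Tm M w ψ) (hψ : ψ ≠ 0) (hw : ∀ j, w ∉ blk F e j) :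
    specialLinear ι F ≤ M := by
  obtain ⟨x, hx⟩ : ∃ x, ψ x ≠ 0 := by
    by_contra hcon
    push Not at hcon
    exact hψ (funext hcon)
  obtain ⟨y₁, y₂, h1, h2, hy1, hy2, hyy⟩ := exists_two_other e hm x
  have hux : (Pi.single x 1 : ι → F) ∈ blk F e (e x).1 := single_mem_blk rfl 1
  by_cases h0 : w y₁ = 0 ∧ w y₂ = 0
  · refine sl_of_axis M hH (by omega) hT hux (single_mem_blk h1 (1 : F)) ?_ ?_ ?_ ?_ (hw _)
    · intro h3
      have := congrFun h3 y₁
      simp at this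
    · rw [single_one_dotProduct, Pi.single_eq_of_ne hy1]
    · rw [single_one_dotProduct, h0.1]
    · rw [dotProduct_single_one]
      exact hx
  · refine sl_of_axis M hH (by omega) hT (χ := Pi.single y₁ (w y₂) - Pi.single y₂ (w y₁)) hux
      ((blk F e _).sub_mem (single_mem_blk h1 _) (single_mem_blk h2 _)) ?_ ?_ (chi_dot y₁ y₂ hyy w) ?_ (hw _)
    · intro h3
      apply h0
      have h4 := congrFun h3 y₁
      have h5 := congrFun h3 y₂
      simp [hyy, Ne.symm hyy] at h4 h5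
      exact ⟨h5, h4⟩
    · rw [sub_dotProduct, single_dotProduct, single_dotProduct, Pi.single_eq_of_ne hy1, Pi.single_eq_of_ne hy2]
      simp
    · rw [dotProduct_single_one]
      exact hx

/-- Case (i). -/
theorem case_i (hm : 2 ≤ m) {w ψ : ι → F} (hT : Tm M w ψ) (hw : w ≠ 0) {x : ι} (hx : ψ x ≠ 0)
    (hb : ∀ p, (e p).1 = (e x).1 → w p = 0) : specialLinear ι F ≤ M := by
  obtain ⟨y, hy, hyx⟩ := exists_other e hm x
  refine sl_of_axis M hH hm hT (single_mem_blk (rfl : (e x).1 = (e x).1) (1 : F)) (single_mem_blk hy (1 : F)) ?_ ?_ ?_ ?_ ?_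
  · intro h3
    have := congrFun h3 y
    simp at this
  · rw [single_one_dotProduct, Pi.single_eq_of_ne hyx]
  · rw [single_one_dotProduct, hb y hy]
  · rw [dotProduct_single_one]
    exact hx
  · intro h3
    apply hw
    funext p
    by_cases hp : (e p).1 = (e x).1
    · exact hb p hp
    · exact h3 p hp

/-- Case (ii). -/
theorem case_ii (hm : 2 ≤ m) {w ψ : ι → F} (hT : Tm M w ψ) (hψ : ψ ≠ 0) {y : ι} (hy : w y ≠ 0)
    (hb : ∀ p, (e p).1 = (e y).1 → ψ p = 0) : specialLinear ι F ≤ M := by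
  obtain ⟨z, hz, hzy⟩ := exists_other e hm y
  have h1 := centre_red M hH hT (single_mem_blk hz (1 : F)) (single_mem_blk (rfl : (e y).1 = (e y).1) (1 : F))
    (by rw [single_one_dotProduct, Pi.single_eq_of_ne (Ne.symm hzy)]) (by
      rw [dotProduct_single_one]
      exact hb z hz)
  rw [single_one_dotProduct] at h1
  obtain ⟨x, hx⟩ : ∃ x, ψ x ≠ 0 := by
    by_contra hcon
    push Not at hcon
    exact hψ (funext hcon)
  have hxy : (e x).1 ≠ (e y).1 := fun h => hx (hb x h)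
  refine case_i M hH hm h1 ?_ hx ?_
  · intro h2
    have := congrFun h2 z
    simp [hy] at this
  · intro p hp
    have hpz : p ≠ z := by
      rintro rfl
      rw [hz] at hp
      exact hxy hp.symm
    simp [Pi.single_eq_of_ne hpz]

/-- Case (iii). -/
theorem case_iii (hm : 2 ≤ m) {w ψ : ι → F} (hT : Tm M w ψ) {a : Fin t} (hβ : ψ ⬝ᵥ res e a w ≠ 0)
    (hw : w ∉ blk F e a) : specialLinear ι F ≤ M := by
  obtain ⟨x, hxa, hx⟩ : ∃ x, (e x).1 = a ∧ w x ≠ 0 := by
    by_contra hcon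
    push Not at hcon
    apply hβ
    rw [(res_eq_zero_iff e a w).mpr hcon, dotProduct_zero]
  obtain ⟨x', hx', hxx⟩ := exists_other e hm x
  rw [hxa] at hx'
  refine sl_of_axis M hH hm hT (u := res e a w) (χ := Pi.single x' (w x) - Pi.single x (w x')) (res_mem e a w)
    ((blk F e a).sub_mem (single_mem_blk hx' _) (single_mem_blk hxa _)) ?_ ?_ (chi_dot x' x hxx w) hβ hw
  · intro h3
    have h4 := congrFun h3 x'
    simp [hxx, hx] at h4
  · rw [sub_dotProduct, single_dotProduct, single_dotProduct, res_of e w hx', res_of e w hxa]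
    ring

omit hH in
/-- An auxiliary element acting on a non-pure transvection (all `ψ_d(w_d)` zero). -/
theorem exists_hc (hm0 : 0 < m) {w ψ : ι → F} (hβ : ∀ d, ψ ⬝ᵥ res e d w = 0)
    (hAB : ∀ d, (∀ p, (e p).1 = d → ψ p = 0) → ∀ p, (e p).1 = d → w p = 0) (c : Fin t) (lam : Fˣ) :
    ∃ h : GL ι F, h ∈ decompositionStabilizer (blk F e) ∧ ((h : GL ι F) : Matrix ι ι F).det = ((lam⁻¹ : Fˣ) : F) ∧
      ((h : GL ι F) : Matrix ι ι F) *ᵥ w = w ∧
      ψ ᵥ* ((h⁻¹ : GL ι F) : Matrix ι ι F) = ψ + ((lam : F) - 1) • res e c ψ := by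
  by_cases h0 : ∀ p, (e p).1 = c → ψ p = 0
  · obtain ⟨y, hy⟩ := exists_fiber e hm0 c
    have hd : (Pi.single y 1 : ι → F) ⬝ᵥ (Pi.single y 1 : ι → F) = 1 := by
      rw [single_one_dotProduct, Pi.single_eq_same]
    refine ⟨rg _ _ hd lam⁻¹, rg_mem_stab e (single_mem_blk hy _) (single_mem_blk hy _) hd _, det_rg _ _ _ _, ?_, ?_⟩
    · rw [rg_mulVec, single_one_dotProduct, hAB c h0 y hy]
      simp
    · rw [vecMul_rg_inv, dotProduct_single_one, h0 y hy, (res_eq_zero_iff e c ψ).mpr h0]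
      simp
  · push Not at h0
    obtain ⟨y, hy, hψy⟩ := h0
    have hd : res e c ψ ⬝ᵥ (Pi.single y (ψ y)⁻¹ : ι → F) = 1 := by
      rw [dotProduct_single, res_of e ψ hy, mul_inv_cancel₀ hψy]
    refine ⟨rg _ _ hd lam⁻¹, rg_mem_stab e (single_mem_blk hy _) (res_mem e c ψ) hd _, det_rg _ _ _ _, ?_, ?_⟩
    · rw [rg_mulVec, res_dot, hβ c]
      simp
    · rw [vecMul_rg_inv, dotProduct_single, mul_inv_cancel₀ hψy]
      simp

/-- Conjugating by a product of two pseudo-reflections. -/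
theorem conj_pair (hm0 : 0 < m) {w ψ : ι → F} (hT : Tm M w ψ) (hβ : ∀ d, ψ ⬝ᵥ res e d w = 0)
    (hAB : ∀ d, (∀ p, (e p).1 = d → ψ p = 0) → ∀ p, (e p).1 = d → w p = 0) {x : ι} (hx : w x ≠ 0)
    {c : Fin t} (hc : c ≠ (e x).1) (lam : Fˣ) :
    Tm M (w + ((lam : F) - 1) • res e (e x).1 w) (ψ + ((lam : F) - 1) • res e c ψ) := by
  obtain ⟨hc', hc1, hc2, hc3, hc4⟩ := exists_hc hm0 hβ hAB c lam
  have hd : (Pi.single x (w x)⁻¹ : ι → F) ⬝ᵥ res e (e x).1 w = 1 := by
    rw [single_dotProduct, res_of e w rfl, inv_mul_cancel₀ hx]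
  have hmem : rg _ _ hd lam * hc' ∈ M := by
    refine hH ⟨(decompositionStabilizer (blk F e)).mul_mem
      (rg_mem_stab e (res_mem e _ w) (single_mem_blk rfl _) hd _) hc1, ?_⟩
    change _ ∈ specialLinear ι F
    rw [mem_specialLinear_iff, Units.val_mul, Matrix.det_mul, det_rg, hc2]
    simp
  refine (hT.conj hmem).congr ?_ ?_
  · rw [Units.val_mul, ← Matrix.mulVec_mulVec, hc3, rg_mulVec, single_dotProduct, inv_mul_cancel₀ hx, mul_one]
  · rw [mul_inv_rev, Units.val_mul, ← Matrix.vecMul_vecMul, hc4, vecMul_rg_inv, add_dotProduct, hβ, smul_dotProduct,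
      dot_eq_zero hc (res_mem e c ψ) (res_mem e _ w)]
    simp

/-- Case (iv). -/
theorem case_iv [Fintype F] (hm : 2 ≤ m) (hq : 3 ≤ Fintype.card F) (ht : 3 ≤ t) {w ψ : ι → F} (hT : Tm M w ψ)
    (hβ : ∀ d, ψ ⬝ᵥ res e d w = 0)
    (hAB : ∀ d, (∀ p, (e p).1 = d → ψ p = 0) → ∀ p, (e p).1 = d → w p = 0) {x y : ι} (hx : w x ≠ 0) (hy : ψ y ≠ 0)
    (hxy : (e y).1 ≠ (e x).1) : specialLinear ι F ≤ M := by
  classical
  obtain ⟨lam, hlam⟩ := exists_notMem_finset ({0, 1} : Finset F) (by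
    have : ({0, 1} : Finset F).card ≤ 2 := Finset.card_le_two
    omega)
  simp only [Finset.mem_insert, Finset.mem_singleton, not_or] at hlam
  obtain ⟨c', hc'⟩ := exists_notMem_finset ({(e x).1, (e y).1} : Finset (Fin t)) (by
    have : ({(e x).1, (e y).1} : Finset (Fin t)).card ≤ 2 := Finset.card_le_two
    rw [Fintype.card_fin]
    omega)
  simp only [Finset.mem_insert, Finset.mem_singleton, not_or] at hc'
  set L : Fˣ := Units.mk0 lam hlam.1 with hL
  have hLv : (L : F) = lam := rfl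
  have h1 := conj_pair M hH (by omega) hT hβ hAB hx hxy L
  have h2 := conj_pair M hH (by omega) hT hβ hAB hx hc'.1 L
  have h3 := h1.sub h2
  have hμ : lam - 1 ≠ 0 := sub_ne_zero.mpr hlam.2
  refine case_ii M hH hm h3 (y := x) ?_ ?_ ?_
  · intro h4
    have h5 := congrFun h4 y
    simp only [Pi.sub_apply, Pi.add_apply, Pi.smul_apply, smul_eq_mul, Pi.zero_apply, hLv] at h5
    rw [res_of e ψ rfl, res_not e ψ (Ne.symm hc'.2)] at h5
    apply hy
    have h6 : (lam - 1) * ψ y = 0 := by linear_combination h5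
    exact (mul_eq_zero.mp h6).resolve_left hμ
  · simp only [Pi.add_apply, Pi.smul_apply, smul_eq_mul, hLv]
    rw [res_of e w rfl]
    have : w x + (lam - 1) * w x = lam * w x := by ring
    rw [this]
    exact mul_ne_zero hlam.1 hx
  · intro p hp
    simp only [Pi.sub_apply, Pi.add_apply, Pi.smul_apply, smul_eq_mul, hLv]
    rw [res_not e ψ (by rw [hp]; exact Ne.symm hxy), res_not e ψ (by rw [hp]; exact Ne.symm hc'.1)]
    ring

/-- A non-block transvection gives `SL`. -/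
theorem sl_of_nonblock [Fintype F] (hm : 2 ≤ m) (hq : 3 ≤ m ∨ (3 ≤ Fintype.card F ∧ 3 ≤ t)) {w ψ : ι → F} (hT : Tm M w ψ)
    (hψ : ψ ≠ 0) (hw : ∀ j, w ∉ blk F e j) : specialLinear ι F ≤ M := by
  rcases hq with hm3 | ⟨hq, ht⟩
  · exact sl_of_three M hH hm3 hT hψ hw
  have hw0 : w ≠ 0 := by
    rintro rfl
    exact hw ⟨0, by omega⟩ (blk F e _).zero_mem
  by_cases h1 : ∃ x, ψ x ≠ 0 ∧ ∀ p, (e p).1 = (e x).1 → w p = 0
  · obtain ⟨x, hx, hb⟩ := h1
    exact case_i M hH hm hT hw0 hx hb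
  by_cases h2 : ∃ y, w y ≠ 0 ∧ ∀ p, (e p).1 = (e y).1 → ψ p = 0
  · obtain ⟨y, hy, hb⟩ := h2
    exact case_ii M hH hm hT hψ hy hb
  by_cases h3 : ∃ d, ψ ⬝ᵥ res e d w ≠ 0
  · obtain ⟨d, hd⟩ := h3
    exact case_iii M hH hm hT hd (hw d)
  push Not at h1 h2 h3
  obtain ⟨x, hx⟩ : ∃ x, w x ≠ 0 := by
    by_contra hcon
    push Not at hcon
    exact hw0 (funext hcon)
  obtain ⟨p, hp, hwp⟩ : ∃ p, (e p).1 ≠ (e x).1 ∧ w p ≠ 0 := by
    by_contra hcon
    push Not at hcon
    exact hw _ hcon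
  obtain ⟨y, hy, hψy⟩ := h2 p hwp
  have hAB : ∀ d, (∀ p, (e p).1 = d → ψ p = 0) → ∀ p, (e p).1 = d → w p = 0 := by
    intro d hd p hp
    by_contra hwp
    obtain ⟨q, hq, hψq⟩ := h2 p hwp
    exact hψq (hd q (hq.trans hp))
  exact case_iv M hH hm hq ht hT h3 hAB hx hψy (by rw [hy]; exact hp)

omit hH in
/-- A matrix sending block vectors to block vectors is in the stabiliser. -/
theorem stab_of_maps (hm0 : 0 < m) (g : GL ι F) (h : ∀ i, ∀ x ∈ blk F e i, ∃ j, (g : Matrix ι ι F) *ᵥ x ∈ blk F e j) :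
    g ∈ decompositionStabilizer (blk F e) := by
  have hgne : ∀ {x : ι → F}, x ≠ 0 → (g : Matrix ι ι F) *ᵥ x ≠ 0 := by
    intro x hx h0
    apply hx
    have := inv_mulVec_mulVec g x
    rw [h0, Matrix.mulVec_zero] at this
    exact this.symm
  have hσ : ∀ i, ∃ j, ∀ x ∈ blk F e i, (g : Matrix ι ι F) *ᵥ x ∈ blk F e j := by
    intro i
    obtain ⟨p, hp⟩ := exists_fiber e hm0 i
    have hx₁ : (Pi.single p 1 : ι → F) ∈ blk F e i := single_mem_blk hp 1
    have hx₁0 : (Pi.single p 1 : ι → F) ≠ 0 := by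
      intro h0
      have := congrFun h0 p
      simp at this
    obtain ⟨j, hj⟩ := h i _ hx₁
    refine ⟨j, fun x hx => ?_⟩
    obtain ⟨j', hj'⟩ := h i x hx
    obtain ⟨j'', hj''⟩ := h i _ ((blk F e i).add_mem hx hx₁)
    rw [Matrix.mulVec_add] at hj''
    by_cases h1 : j' = j
    · rwa [h1] at hj'
    by_cases h2 : j'' = j
    · rw [h2] at hj''
      have := (blk F e j).sub_mem hj'' hj
      rwa [add_sub_cancel_right] at this
    · exfalso
      obtain ⟨q, hq⟩ : ∃ q, ((g : Matrix ι ι F) *ᵥ (Pi.single p 1 : ι → F)) q ≠ 0 := by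
        by_contra hcon
        push Not at hcon
        exact hgne hx₁0 (funext hcon)
      have hqj : (e q).1 = j := by
        by_contra hne
        exact hq (hj q hne)
      have h3 := hj' q (by rw [hqj]; exact Ne.symm h1)
      have h4 := hj'' q (by rw [hqj]; exact Ne.symm h2)
      rw [Pi.add_apply, h3, zero_add] at h4
      exact hq h4
  choose σ hσ using hσ
  have hmap : ∀ i, (blk F e i).map (Matrix.toLin' (g : Matrix ι ι F)) = blk F e (σ i) := by
    intro i
    refine Submodule.eq_of_le_of_finrank_eq ?_ ?_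
    · rintro _ ⟨x, hx, rfl⟩
      exact hσ i x hx
    · rw [finrank_map_toLin', finrank_blk, finrank_blk]
  have hinj : Function.Injective σ := by
    intro i i' hii
    by_contra hne'
    obtain ⟨p, hp⟩ := exists_fiber e hm0 i
    have hx₁ : (Pi.single p 1 : ι → F) ∈ blk F e i := single_mem_blk hp 1
    have h1 : (Matrix.toLin' (g : Matrix ι ι F)) (Pi.single p 1 : ι → F) ∈
        (blk F e i').map (Matrix.toLin' (g : Matrix ι ι F)) := by
      rw [hmap i', ← hii, ← hmap i]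
      exact ⟨_, hx₁, rfl⟩
    obtain ⟨x₂, hx₂, h2⟩ := h1
    have h3 : x₂ = Pi.single p 1 := by
      have h4 : (g : Matrix ι ι F) *ᵥ x₂ = (g : Matrix ι ι F) *ᵥ (Pi.single p 1 : ι → F) := h2
      have h5 := inv_mulVec_mulVec g x₂
      rw [h4, inv_mulVec_mulVec] at h5
      exact h5.symm
    rw [h3] at hx₂
    have h6 := hx₂ p (by rw [hp]; exact hne')
    simp at h6
  exact mem_decompositionStabilizer_of_forall (finrank_blk e) (Equiv.ofBijective σ (Finite.injective_iff_bijective.mp hinj)) g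
    (fun i x hx => hσ i x hx)

/-- A subgroup properly containing the block stabiliser contains `SL`, if `2 ≤ m`. -/
theorem block_main [Fintype F] (hm : 2 ≤ m) (hq : 3 ≤ m ∨ (3 ≤ Fintype.card F ∧ 3 ≤ t)) (g : GL ι F) (hg : g ∈ M)
    (hgs : g ∉ decompositionStabilizer (blk F e)) : specialLinear ι F ≤ M := by
  obtain ⟨i, x, hx, hxj⟩ : ∃ i, ∃ x ∈ blk F e i, ∀ j, (g : Matrix ι ι F) *ᵥ x ∉ blk F e j := by
    by_contra hcon
    push Not at hcon
    exact hgs (stab_of_maps (by omega) g hcon)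
  obtain ⟨p, hp⟩ : ∃ p, x p ≠ 0 := by
    by_contra hcon
    push Not at hcon
    have h0 : x = 0 := funext hcon
    apply hxj i
    rw [h0, Matrix.mulVec_zero]
    exact (blk F e i).zero_mem
  have hpi : (e p).1 = i := by
    by_contra h
    exact hp (hx p h)
  obtain ⟨p', hp', hpp⟩ := exists_other e hm p
  rw [hpi] at hp'
  have hφ : (Pi.single p' (x p) - Pi.single p (x p') : ι → F) ∈ blk F e i :=
    (blk F e i).sub_mem (single_mem_blk hp' _) (single_mem_blk hpi _)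
  have hT := pure_mem M hH hx hφ (chi_dot p' p hpp x)
  refine sl_of_nonblock M hH hm hq (hT.conj hg) ?_ hxj
  intro h0
  have h1 : (Pi.single p' (x p) - Pi.single p (x p') : ι → F) = 0 := by
    have := congrArg (fun v => v ᵥ* (g : Matrix ι ι F)) h0
    simp only [Matrix.vecMul_vecMul, ← Units.val_mul, inv_mul_cancel, Units.val_one, Matrix.vecMul_one,
      Matrix.zero_vecMul] at this
    exact this
  have h2 := congrFun h1 p'
  simp [hpp, hp] at h2

omit hH in
/-- Strictness. -/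
theorem stab_lt (hm0 : 0 < m) (ht : 2 ≤ t) :
    decompositionStabilizer (blk F e) ⊓ specialLinear ι F < specialLinear ι F := by
  refine lt_of_le_of_ne inf_le_right fun he => ?_
  obtain ⟨x, hx⟩ := exists_fiber e hm0 ⟨0, by omega⟩
  obtain ⟨y, hy⟩ := exists_fiber e hm0 ⟨1, by omega⟩
  have hxy : (e x).1 ≠ (e y).1 := by
    rw [hx, hy]
    simp [Fin.ext_iff]
  have hxyn : x ≠ y := by
    rintro rfl
    exact hxy rfl
  have hd : (Pi.single y 1 : ι → F) ⬝ᵥ (Pi.single x 1 : ι → F) = 0 := by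
    rw [single_one_dotProduct, Pi.single_eq_of_ne (Ne.symm hxyn)]
  have h1 : transv (Pi.single x 1 : ι → F) (Pi.single y 1) hd ∈ decompositionStabilizer (blk F e) ⊓ specialLinear ι F := by
    rw [he]
    exact transv_mem_specialLinear _ _ _
  obtain ⟨σ, hσ⟩ := h1.1
  have h2 : ((transv (Pi.single x 1 : ι → F) (Pi.single y 1) hd : GL ι F) : Matrix ι ι F) *ᵥ (Pi.single y 1 : ι → F) ∈
      blk F e (σ (e y).1) := by
    rw [← hσ]
    exact ⟨_, single_mem_blk rfl 1, rfl⟩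
  rw [transv_mulVec, single_one_dotProduct, Pi.single_eq_same, one_smul] at h2
  have h3 : (e x).1 = σ (e y).1 := by
    by_contra hne
    have := h2 x hne
    simp [Pi.single_eq_of_ne hxyn] at this
  have h4 : (e y).1 = σ (e y).1 := by
    by_contra hne
    have := h2 y hne
    simp [Pi.single_eq_of_ne (Ne.symm hxyn)] at this
  exact hxy (h3.trans h4.symm)

end Cfsg.Agent.Lib.SLC2.BlockC
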