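/-
Maximality of the stabiliser of a decomposition in `SL`.
-/
import Cfsg.Agent.Lib.SLC2.BlockC
set_option autoImplicit false

namespace Cfsg.Agent.Lib.SLC2.BlockD

open Cfsg Cfsg.Geo Cfsg.Agent.Lib.Geo.Basic Cfsg.Agent.Lib.Geo.Centres Cfsg.Agent.Lib.Geo.Parabolic
open Cfsg.Agent.Lib.Geo.SpDecomp
open Cfsg.Agent.Lib.SLC2.Mono Cfsg.Agent.Lib.SLC2.MonoA Cfsg.Agent.Lib.SLC2.Refl Cfsg.Agent.Lib.SLC2.MonoB
open Cfsg.Agent.Lib.SLC2.BlockA Cfsg.Agent.Lib.SLC2.BlockB Cfsg.Agent.Lib.SLC2.BlockC
open scoped MatrixGroups Matrix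

variable {ι : Type} [Fintype ι] [DecidableEq ι] {F : Type*} [Field F] {t m : ℕ}

/-- A monomial matrix stabilises the lines. -/
theorem isMono_mem_stab (e : ι ≃ Fin t × Fin 1) (g : GL ι F) (hg : IsMono (g : Matrix ι ι F)) :
    g ∈ decompositionStabilizer (blk F e) := by
  refine stab_of_maps (by omega) g fun i x hx => ?_
  obtain ⟨b, hb⟩ := hg (e.symm (i, 0))
  refine ⟨(e b).1, fun p hp => ?_⟩
  have hpb : p ≠ b := by
    rintro rfl
    exact hp rfl
  change ∑ a, (g : Matrix ι ι F) p a * x a = 0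
  refine Finset.sum_eq_zero fun a _ => ?_
  by_cases ha : (e a).1 = i
  · have : a = e.symm (i, 0) := by
      apply e.injective
      rw [e.apply_symm_apply]
      exact Prod.ext ha (Subsingleton.elim _ _)
    rw [this, hb p hpb, zero_mul]
  · rw [hx a ha, mul_zero]

/-- The coordinate form: the stabiliser of the coordinate blocks is maximal. -/
theorem blk_maximal [Fintype F] (hn : 13 ≤ Fintype.card ι) (e : ι ≃ Fin t × Fin m) (ht : 2 ≤ t) (hm0 : 0 < m)
    (h1 : ¬ (m = 1 ∧ Fintype.card F ≤ 4)) (h2 : ¬ (m = 2 ∧ Fintype.card F = 2)) :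
    IsMaximalIn (specialLinear ι F) (decompositionStabilizer (blk F e) ⊓ specialLinear ι F) := by
  refine isMaximalIn_of_forall (stab_lt hm0 ht) fun M hHM hMK g hgM hgH => ?_
  have hgs : g ∉ decompositionStabilizer (blk F e) := fun h => hgH ⟨h, hMK hgM⟩
  have hcardF : 2 ≤ Fintype.card F := Fintype.one_lt_card
  have hcard : Fintype.card ι = t * m := by
    rw [Fintype.card_congr e, Fintype.card_prod, Fintype.card_fin, Fintype.card_fin]
  by_cases hm1 : m = 1
  · subst hm1
    have hq : 5 ≤ Fintype.card F := by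
      by_contra hcon
      exact h1 ⟨rfl, by omega⟩
    refine mono_main hq hn M (fun k hk hk2 => hHM ⟨isMono_mem_stab e k hk2, (mem_specialLinear_iff _).mpr hk⟩)
      (fun k hk => (mem_specialLinear_iff _).mp (hMK hk)) g hgM fun hm => hgs (isMono_mem_stab e g hm)
  · refine block_main M hHM (by omega) ?_ g hgM hgs
    by_cases hm3 : 3 ≤ m
    · exact Or.inl hm3
    · have hm2 : m = 2 := by omega
      subst hm2
      refine Or.inr ⟨?_, by omega⟩
      by_contra hcon
      exact h2 ⟨rfl, by omega⟩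

/-- A decomposition is the image of coordinate blocks. -/
theorem exists_frame {n : ℕ} (D : Fin t → Submodule F (Fin n → F)) (hD : IsMDecomposition m D) :
    ∃ (e : Fin n ≃ Fin t × Fin m) (P : GL (Fin n) F), ∀ i, (blk F e i).map (Matrix.toLin' (P : Matrix (Fin n) (Fin n) F)) = D i := by
  classical
  have hint := DirectSum.isInternal_submodule_of_iSupIndep_of_iSup_eq_top hD.indep hD.iSup_eq_top
  let bs : ∀ i, Module.Basis (Fin m) F (D i) := fun i => Module.finBasisOfFinrankEq F (D i) (hD.finrank_eq i)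
  let B := hint.collectedBasis bs
  have hcard : Fintype.card (Fin n) = Fintype.card (Fin t × Fin m) := by
    have h1 := Module.finrank_eq_card_basis B
    simp only [Module.finrank_fintype_fun_eq_card, Fintype.card_fin, Fintype.card_sigma, Finset.sum_const,
      Finset.card_univ, smul_eq_mul] at h1
    simp [h1]
  let e : Fin n ≃ Fin t × Fin m := Fintype.equivOfCardEq hcard
  let b : Module.Basis (Fin n) F (Fin n → F) := B.reindex ((Equiv.sigmaEquivProd _ _).trans e.symm)
  have hb : ∀ a, b a ∈ D (e a).1 := by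
    intro a
    have h1 : b a = B ((Equiv.sigmaEquivProd _ _).symm (e a)) := by
      simp [b, Module.Basis.reindex_apply]
    have h2 : B ((Equiv.sigmaEquivProd _ _).symm (e a)) = ((bs (e a).1 (e a).2 : D (e a).1) : Fin n → F) := by
      simp only [B]
      rw [DirectSum.IsInternal.collectedBasis_coe]
      rfl
    rw [h1, h2]
    exact (bs (e a).1 (e a).2).2
  let P : GL (Fin n) F :=
    ⟨(Pi.basisFun F (Fin n)).toMatrix b, b.toMatrix (Pi.basisFun F (Fin n)),
      Module.Basis.toMatrix_mul_toMatrix_flip _ _, Module.Basis.toMatrix_mul_toMatrix_flip _ _⟩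
  have hP : ∀ v : Fin n → F, (P : Matrix (Fin n) (Fin n) F) *ᵥ v = ∑ a, v a • b a := by
    intro v
    ext i
    change ∑ a, (Pi.basisFun F (Fin n)).toMatrix b i a * v a = _
    rw [Finset.sum_apply]
    refine Finset.sum_congr rfl fun a _ => ?_
    rw [Module.Basis.toMatrix_apply, Pi.basisFun_repr, Pi.smul_apply, smul_eq_mul, mul_comm]
  refine ⟨e, P, fun i => ?_⟩
  refine Submodule.eq_of_le_of_finrank_eq ?_ ?_
  · rintro _ ⟨v, hv, rfl⟩
    rw [Matrix.toLin'_apply, hP]
    refine Submodule.sum_mem _ fun a _ => ?_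
    by_cases ha : (e a).1 = i
    · rw [← ha]
      exact Submodule.smul_mem _ _ (hb a)
    · rw [hv a ha, zero_smul]
      exact Submodule.zero_mem _
  · rw [finrank_map_toLin', finrank_blk, hD.finrank_eq]

end Cfsg.Agent.Lib.SLC2.BlockD
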